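import Mathlib
import Cfsg.Agent.S1757
import Cfsg.Agent.Lib.PGroup.WeaklyClosed
import Cfsg.Agent.Lib.PGroup.Basic
import Cfsg.Agent.Lib.Basic.PCore
import Cfsg.Agent.Lib.Components.FStar

/-! Elementary abelian TI-subgroups `V` with a conjugate inside `O₂(N(V))` (first part). -/

set_option autoImplicit false

namespace Cfsg.Agent.Lib.TISub.Basic

open Subgroup Cfsg Cfsg.Agent.Lib.PGroup.WeaklyClosed
open scoped commutatorElement

variable {G : Type*} [Group G] [Finite G]

/-- `O₂(N(T))` as a subgroup of `G`. -/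
def QQ (T : Subgroup G) : Subgroup G :=
  (pCore 2 ↥(normalizer (T : Set G))).map (normalizer (T : Set G)).subtype

theorem qq_le (T : Subgroup G) : QQ T ≤ normalizer (T : Set G) := Subgroup.map_subtype_le _

theorem qq_pgroup (T : Subgroup G) : IsPGroup 2 (QQ T) :=
  (Cfsg.Agent.Lib.Basic.PCore.pCore_isPGroup 2).map _

theorem qq_normal {T : Subgroup G} {m a : G} (hm : m ∈ normalizer (T : Set G)) (ha : a ∈ QQ T) :
    m * a * m⁻¹ ∈ QQ T := by
  obtain ⟨b, hb, rfl⟩ := ha
  have hN : (pCore 2 ↥(normalizer (T : Set G))).Normal :=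
    @Subgroup.normal_of_characteristic _ _ _ (Cfsg.Agent.Lib.Basic.PCore.pCore_char 2 _)
  exact ⟨⟨m, hm⟩ * b * (⟨m, hm⟩ : ↥(normalizer (T : Set G)))⁻¹, hN.conj_mem _ hb _, by simp⟩

theorem le_qq {T R : Subgroup G} (h1 : R ≤ normalizer (T : Set G)) (h2 : IsPGroup 2 R)
    (h3 : ∀ m ∈ normalizer (T : Set G), ∀ a ∈ R, m * a * m⁻¹ ∈ R) : R ≤ QQ T := by
  have hn : (R.subgroupOf (normalizer (T : Set G))).Normal :=
    ⟨fun n hn g => mem_subgroupOf.2 (h3 g.1 g.2 n.1 (mem_subgroupOf.1 hn))⟩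
  have hp' : IsPGroup 2 (R.subgroupOf (normalizer (T : Set G))) := by
    rintro ⟨a, ha⟩
    obtain ⟨k, hk⟩ := h2 ⟨a, mem_subgroupOf.mp ha⟩
    refine ⟨k, Subtype.ext (Subtype.ext ?_)⟩
    simpa using congrArg Subtype.val hk
  have hle := Cfsg.Agent.Lib.Basic.PCore.le_pCore hn hp'
  intro x hx
  exact ⟨⟨x, h1 hx⟩, hle (mem_subgroupOf.mpr hx), rfl⟩

theorem mem_norm_cj {g m : G} {T : Subgroup G} :
    m ∈ normalizer (cj g T : Set G) ↔ g⁻¹ * m * g ∈ normalizer (T : Set G) := by
  rw [← cj_eq_self_iff, ← cj_eq_self_iff, cj_mul, cj_mul]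
  constructor
  · intro h
    rw [h]
    simp
  · intro h
    apply cj_inj (g := g⁻¹)
    simpa using h

theorem qq_cj_le (g : G) (T : Subgroup G) : cj g (QQ T) ≤ QQ (cj g T) := by
  apply le_qq
  · intro x hx
    exact mem_norm_cj.2 (qq_le T (mem_cj.1 hx))
  · exact isPGroup_cj (qq_pgroup T)
  · intro m hm a ha
    rw [mem_cj] at ha ⊢
    have := qq_normal (mem_norm_cj.1 hm) ha
    convert this using 1
    group

theorem qq_cj (g : G) (T : Subgroup G) : QQ (cj g T) = cj g (QQ T) := by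
  apply le_antisymm _ (qq_cj_le g T)
  have := qq_cj_le g⁻¹ (cj g T)
  rw [cj_inv_cj] at this
  have h2 := cj_mono (g := g) this
  simpa using h2

/-- The hypotheses of the theorem, in elementwise form. -/
structure Hyp (V : Subgroup G) : Prop where
  comm : ∀ a ∈ V, ∀ b ∈ V, a * b = b * a
  sq : ∀ a ∈ V, a * a = 1
  ti : ∀ x : G, cj x V = V ∨ cj x V ⊓ V = ⊥
  fs : ∀ m ∈ normalizer (V : Set G), (∀ a ∈ QQ V, m * a = a * m) → m ∈ QQ V
  mx : ∀ A : Subgroup G, V ≤ A → A ≤ normalizer (V : Set G) →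
    (∀ a ∈ A, ∀ b ∈ A, a * b = b * a) → (∀ m ∈ normalizer (V : Set G), ∀ a ∈ A, m * a * m⁻¹ ∈ A) →
    A = V

theorem conj_mul_conj (g a b : G) : g * a * g⁻¹ * (g * b * g⁻¹) = g * (a * b) * g⁻¹ := by group

theorem Hyp.conj {V : Subgroup G} (h : Hyp V) (g : G) : Hyp (cj g V) where
  comm := by
    intro a ha b hb
    rw [mem_cj] at ha hb
    have := h.comm _ ha _ hb
    have h2 := congrArg (fun z => g * z * g⁻¹) this
    beta_reduce at h2
    convert h2 using 1 <;> group
  sq := by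
    intro a ha
    rw [mem_cj] at ha
    have := h.sq _ ha
    have h2 := congrArg (fun z => g * z * g⁻¹) this
    beta_reduce at h2
    convert h2 using 1
    · group
    · group
  ti := by
    intro x
    rcases h.ti (g⁻¹ * x * g) with h1 | h1
    · left
      rw [← cj_mul, ← mul_one (x * g)]
      have : cj (x * g) V = cj g V := by
        apply cj_inj (g := g⁻¹)
        rw [← cj_mul, ← cj_mul]
        simpa [mul_assoc] using h1
      simpa using this
    · right
      rw [eq_bot_iff] at h1 ⊢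
      rintro y ⟨hy1, hy2⟩
      have hy1' : y ∈ cj (x * g) V := by
        rw [cj_mul]; exact hy1
      have h3 : g⁻¹ * y * g ∈ cj (g⁻¹ * x * g) V ⊓ V := by
        refine ⟨?_, mem_cj.1 hy2⟩
        have h5 := mem_cj.1 hy1'
        refine mem_cj.2 ?_
        convert h5 using 1
        group
      have h4 := h1 h3
      rw [mem_bot] at h4 ⊢
      have := congrArg (fun z => g * z * g⁻¹) h4
      simpa [mul_assoc] using this
  fs := by
    intro m hm hc
    rw [qq_cj, mem_cj]
    apply h.fs _ (mem_norm_cj.1 hm)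
    intro a ha
    have h1 : g * a * g⁻¹ ∈ QQ (cj g V) := by
      rw [qq_cj]; exact conj_mem_cj ha
    have := hc _ h1
    have h2 := congrArg (fun z => g⁻¹ * z * g) this
    beta_reduce at h2
    convert h2 using 1 <;> group
  mx := by
    intro A h1 h2 h3 h4
    have := h.mx (cj g⁻¹ A) ?_ ?_ ?_ ?_
    · rw [← this]; simp
    · have := cj_mono (g := g⁻¹) h1
      simpa using this
    · intro x hx
      rw [mem_cj, inv_inv] at hx
      have := mem_norm_cj.1 (h2 hx)
      convert this using 1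
      group
    · intro a ha b hb
      rw [mem_cj, inv_inv] at ha hb
      have := h3 _ ha _ hb
      have h5 := congrArg (fun z => g⁻¹ * z * g) this
      beta_reduce at h5
      convert h5 using 1 <;> group
    · intro m hm a ha
      rw [mem_cj, inv_inv] at ha ⊢
      have h6 : g * m * g⁻¹ ∈ normalizer (cj g V : Set G) := by
        apply mem_norm_cj.2
        convert hm using 1
        group
      have := h4 _ h6 _ ha
      convert this using 1
      group


theorem Hyp.pg {V : Subgroup G} (h : Hyp V) : IsPGroup 2 V := by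
  rintro ⟨a, ha⟩
  refine ⟨1, Subtype.ext ?_⟩
  simpa [pow_two] using h.sq a ha

theorem Hyp.ti_eq {V : Subgroup G} (h : Hyp V) {x y t : G} (h1 : t ∈ cj x V) (h2 : t ∈ cj y V)
    (ht : t ≠ 1) : cj x V = cj y V := by
  have h1' := mem_cj.1 h1
  have h2' := mem_cj.1 h2
  rcases h.ti (x⁻¹ * y) with h3 | h3
  · rw [cj_mul] at h3
    have := congrArg (cj x) h3
    simpa using this.symm
  · exfalso
    have h4 : x⁻¹ * t * x ∈ cj (x⁻¹ * y) V ⊓ V := by
      refine ⟨mem_cj.2 ?_, h1'⟩
      convert h2' using 1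
      group
    rw [h3, mem_bot] at h4
    apply ht
    have := congrArg (fun z => x * z * x⁻¹) h4
    simpa [mul_assoc] using this

theorem Hyp.norm_of_comm {V : Subgroup G} (h : Hyp V) {x t e : G} (ht : t ∈ cj x V) (ht1 : t ≠ 1)
    (he : e * t = t * e) : e ∈ normalizer (cj x V : Set G) := by
  rw [← cj_eq_self_iff, ← cj_mul]
  have : t ∈ cj (e * x) V := by
    rw [cj_mul, mem_cj]
    have : e⁻¹ * t * e = t := by rw [mul_assoc, ← he]; group
    rwa [this]
  rw [h.ti_eq this ht ht1]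

/-- A conjugate normalizing `V` commutes with `V`. -/
theorem Hyp.comm_of_norm {V : Subgroup G} (h : Hyp V) {x : G}
    (hT : cj x V ≤ normalizer (V : Set G)) : ∀ t ∈ cj x V, ∀ v ∈ V, t * v = v * t := by
  by_cases hxV : cj x V = V
  · intro t ht v hv
    rw [hxV] at ht
    exact h.comm _ ht _ hv
  have hbot : V ⊓ cj x V = ⊥ := by
    rcases h.ti x with h3 | h3
    · exact absurd h3 hxV
    · rwa [inf_comm]
  have hT' : IsPGroup 2 (cj x V) := isPGroup_cj h.pg
  have hti' : ∀ g : G, cj g (cj x V) = cj x V ∨ cj g (cj x V) ⊓ cj x V = ⊥ := by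
    intro g
    by_cases hg : cj g (cj x V) = cj x V
    · exact Or.inl hg
    right
    rw [eq_bot_iff]
    rintro t ⟨ht1, ht2⟩
    rw [mem_bot]
    by_contra ht
    apply hg
    rw [← cj_mul] at ht1 ⊢
    exact h.ti_eq ht1 ht2 ht
  have := Cfsg.Agent.S1757.result 2 V (cj x V) h.pg hT' h.ti hti' (by rw [card_cj]) hbot hT
  intro t ht v hv
  have h4 := (Subgroup.commutator_eq_bot_iff_le_centralizer.1 this) hv
  exact ((Subgroup.mem_centralizer_iff.1 h4) t ht)

/-- The commutator subgroup of a suitable normal `2`-subgroup of `N(V)` centralizing `V` lies in `V`. -/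
theorem Hyp.comm_le {V : Subgroup G} (h : Hyp V) {R : Subgroup G} (hVR : V ≤ R)
    (hRN : R ≤ normalizer (V : Set G)) (hRC : ∀ r ∈ R, ∀ v ∈ V, r * v = v * r)
    (hRP : IsPGroup 2 R) (hRn : ∀ m ∈ normalizer (V : Set G), ∀ a ∈ R, m * a * m⁻¹ ∈ R) :
    ⁅R, R⁆ ≤ V := by
  by_contra hne
  set T : Subgroup G := ⁅R, R⁆ ⊔ V with hT
  have hTR : T ≤ R := sup_le (Subgroup.commutator_le_self _) hVR
  have hcR : ∀ m ∈ normalizer (V : Set G), cj m R = R := by
    intro m hm
    apply le_antisymm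
    · rintro _ ⟨a, ha, rfl⟩
      exact hRn m hm a ha
    · intro a ha
      refine mem_cj.2 ?_
      have := hRn m⁻¹ (Subgroup.inv_mem _ hm) a ha
      simpa using this
  have hTm : ∀ m ∈ normalizer (V : Set G), ∀ t ∈ T, m * t * m⁻¹ ∈ T := by
    intro m hm t ht
    have h1 : cj m T = T := by
      simp only [hT, cj, Subgroup.map_sup, Subgroup.map_commutator]
      have h2 : R.map (MulAut.conj m).toMonoidHom = R := hcR m hm
      have h3 : V.map (MulAut.conj m).toMonoidHom = V := cj_eq_self_iff.2 hm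
      rw [h2, h3]
    rw [← h1]
    exact conj_mem_cj ht
  -- the central layer
  let A : Subgroup G :=
    { carrier := {s | s ∈ T ∧ ∀ r ∈ R, s * r * s⁻¹ * r⁻¹ ∈ V}
      one_mem' := ⟨T.one_mem, fun r _ => by simp [V.one_mem]⟩
      mul_mem' := by
        rintro a b ⟨ha, ha'⟩ ⟨hb, hb'⟩
        refine ⟨T.mul_mem ha hb, fun r hr => ?_⟩
        have e1 : a * b * r * (a * b)⁻¹ * r⁻¹
            = (a * (b * r * b⁻¹ * r⁻¹) * a⁻¹) * (a * r * a⁻¹ * r⁻¹) := by group
        rw [e1]
        refine V.mul_mem ?_ (ha' r hr)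
        have h5 := hb' r hr
        have h6 := hRC a (hTR ha) _ h5
        rw [h6]
        simpa using h5
      inv_mem' := by
        rintro a ⟨ha, ha'⟩
        refine ⟨T.inv_mem ha, fun r hr => ?_⟩
        have h5 := ha' (a⁻¹ * r * a) (by
          have h6 := R.mul_mem (R.mul_mem (R.inv_mem (hTR ha)) hr) (hTR ha)
          exact h6)
        have e1 : a⁻¹ * r * a⁻¹⁻¹ * r⁻¹ = (a * (a⁻¹ * r * a) * a⁻¹ * (a⁻¹ * r * a)⁻¹)⁻¹ := by group
        rw [e1]
        exact V.inv_mem h5 }
  have hAT : A ≤ T := fun s hs => hs.1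
  have hVA : V ≤ A := by
    intro v hv
    refine ⟨(le_sup_right : V ≤ T) hv, fun r hr => ?_⟩
    have := hRC r hr v hv
    have e1 : v * r * v⁻¹ * r⁻¹ = 1 := by
      rw [← this]; group
    rw [e1]; exact V.one_mem
  -- `A ≠ V`
  have hex : ∃ s ∈ A, s ∉ V := by
    have hN0 : (V.subgroupOf R).Normal := by
      refine ⟨fun n hn g => mem_subgroupOf.2 ?_⟩
      have h1 := mem_subgroupOf.1 hn
      have := hRC g.1 g.2 n.1 h1
      have e1 : ((g * n * g⁻¹ : ↥R) : G) = n.1 := by
        simp only [Subgroup.coe_mul, Subgroup.coe_inv]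
        rw [this]; group
      rw [e1]; exact h1
    let π := QuotientGroup.mk' (V.subgroupOf R)
    have hP : IsPGroup 2 (↥R ⧸ V.subgroupOf R) := hRP.to_quotient _
    have hTn : (T.subgroupOf R).Normal := by
      refine ⟨fun n hn g => mem_subgroupOf.2 ?_⟩
      have h1 := mem_subgroupOf.1 hn
      have e1 : ((g * n * g⁻¹ : ↥R) : G) = ⁅g.1, n.1⁆ * n.1 := by
        simp [commutatorElement_def]
      rw [e1]
      exact T.mul_mem ((le_sup_left : ⁅R, R⁆ ≤ T) (Subgroup.commutator_mem_commutator g.2 n.2)) h1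
    have hTbar : ((T.subgroupOf R).map π).Normal := Subgroup.Normal.map hTn π (QuotientGroup.mk'_surjective _)
    have hne' : (T.subgroupOf R).map π ≠ ⊥ := by
      intro hb
      apply hne
      refine (le_sup_left : ⁅R, R⁆ ≤ T).trans ?_
      intro t ht
      have h1 : π ⟨t, hTR ht⟩ ∈ (T.subgroupOf R).map π := ⟨_, mem_subgroupOf.2 ht, rfl⟩
      rw [hb, mem_bot] at h1
      exact mem_subgroupOf.1 ((QuotientGroup.eq_one_iff _).1 h1)
    have h7 := Cfsg.Agent.Lib.PGroup.Basic.inf_center_ne_bot (hN := hTbar) hP hne'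
    obtain ⟨⟨z, hzT, hzC⟩, hz1⟩ := Subgroup.ne_bot_iff_exists_ne_one.1 h7
    obtain ⟨t0, ht0, rfl⟩ := hzT
    refine ⟨t0.1, ⟨mem_subgroupOf.1 ht0, fun r hr => ?_⟩, fun hv => hz1 ?_⟩
    · have h8 := Subgroup.mem_center_iff.1 hzC (π ⟨r, hr⟩)
      have h9 : π (t0 * ⟨r, hr⟩ * t0⁻¹ * (⟨r, hr⟩ : ↥R)⁻¹) = 1 := by
        simp only [map_mul, map_inv]
        rw [← h8]
        group
      exact mem_subgroupOf.1 ((QuotientGroup.eq_one_iff _).1 h9)
    · apply Subtype.ext
      exact (QuotientGroup.eq_one_iff _).2 (mem_subgroupOf.2 hv)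
  obtain ⟨s, hsA, hsV⟩ := hex
  -- `A` is abelian
  have hAR : ⁅A, R⁆ ≤ V := Subgroup.commutator_le.2 fun s hs r hr => hs.2 r hr
  have hVRb : ⁅V, R⁆ = ⊥ := by
    rw [Subgroup.commutator_eq_bot_iff_le_centralizer]
    intro v hv
    exact Subgroup.mem_centralizer_iff.2 fun r hr => hRC r hr v hv
  have h1 : ⁅⁅A, R⁆, R⁆ = ⊥ := by
    rw [eq_bot_iff, ← hVRb]
    exact Subgroup.commutator_mono hAR le_rfl
  have h2 : ⁅⁅R, A⁆, R⁆ = ⊥ := by
    rw [Subgroup.commutator_comm R A]
    exact h1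
  have h3 : ⁅⁅R, R⁆, A⁆ = ⊥ := Subgroup.commutator_commutator_eq_bot_of_rotate h2 h1
  have hAc : ∀ a ∈ A, ∀ t ∈ T, a * t = t * a := by
    intro a ha t ht
    have h4 : T ≤ Subgroup.centralizer ({a} : Set G) := by
      refine sup_le ?_ ?_
      · intro c hc
        have h5 := (Subgroup.commutator_eq_bot_iff_le_centralizer.1 h3) hc
        exact Subgroup.mem_centralizer_iff.2 fun y hy => by
          rw [Set.mem_singleton_iff] at hy
          subst hy
          exact (Subgroup.mem_centralizer_iff.1 h5) _ ha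
      · intro v hv
        exact Subgroup.mem_centralizer_iff.2 fun y hy => by
          rw [Set.mem_singleton_iff] at hy
          subst hy
          exact hRC _ (hTR ha.1) v hv
    exact (Subgroup.mem_centralizer_iff.1 (h4 ht)) a (Set.mem_singleton a)
  have hEq : A = V := h.mx A hVA (fun a ha => hRN (hTR ha.1))
    (fun a ha b hb => hAc a ha b hb.1) (by
      intro m hm a ha
      refine ⟨hTm m hm a ha.1, fun r hr => ?_⟩
      have h5 := ha.2 (m⁻¹ * r * m) (by
        have := hRn m⁻¹ (Subgroup.inv_mem _ hm) r hr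
        simpa using this)
      have h6 := (Subgroup.mem_normalizer_iff.1 hm _).1 h5
      convert h6 using 1
      group)
  exact hsV (hEq ▸ hsA)

end Cfsg.Agent.Lib.TISub.Basic
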