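import Mathlib

/-! A finite additive group of matrices over `𝔽₂`, of the maximal size, closed under inverses,
whose non-zero elements are invertible, is a field. (Hua's identity and Chevalley--Warning.) -/

set_option autoImplicit false

namespace Cfsg.Agent.Lib.TISub.Field

open MvPolynomial

section Hua

variable {R : Type*} [Ring R] (A : AddSubgroup R)

/-- Hua's identity, in the form we need. -/
theorem hua (h1 : (1 : R) ∈ A) (hinv : ∀ a ∈ A, a ≠ 0 → ∃ b ∈ A, a * b = 1 ∧ b * a = 1) {a b : R}
    (ha : a ∈ A) (hb : b ∈ A) : a * b * a ∈ A := by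
  by_cases ha0 : a = 0
  · subst ha0; simpa using A.zero_mem
  by_cases hb0 : b = 0
  · subst hb0; simpa using A.zero_mem
  obtain ⟨a', ha', haa, haa'⟩ := hinv a ha ha0
  obtain ⟨b', hb', hbb, hbb'⟩ := hinv b hb hb0
  by_cases hc0 : b' - a = 0
  · have e : b' = a := sub_eq_zero.1 hc0
    subst e
    have : b' * b * b' = b' := by rw [hbb']; simp
    rw [this]; exact ha
  obtain ⟨c', hc', hcc, hcc'⟩ := hinv (b' - a) (A.sub_mem hb' ha) hc0
  set c := b' - a with hc
  -- `d = a' + c'` has inverse `c b a`
  have hd1 : (a' + c') * (c * b * a) = 1 := by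
    have e1 : a' * (c * b * a) = 1 - b * a := by
      rw [hc]
      have : a' * ((b' - a) * b * a) = a' * (b' * b) * a - (a' * a) * (b * a) := by
        noncomm_ring
      rw [this, hbb', haa']
      simp [haa']
    have e2 : c' * (c * b * a) = b * a := by
      have : c' * (c * b * a) = (c' * c) * (b * a) := by noncomm_ring
      rw [this, hcc']; simp
    rw [add_mul, e1, e2]; simp
  have hd2 : (c * b * a) * (a' + c') = 1 := by
    have e1 : (c * b * a) * a' = c * b := by
      have : (c * b * a) * a' = c * b * (a * a') := by noncomm_ring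
      rw [this, haa]; simp
    have e2 : (c * b * a) * c' = 1 - c * b := by
      have e3 : b * a = 1 - b * c := by
        rw [hc, mul_sub, hbb]; abel
      have : (c * b * a) * c' = c * (b * a) * c' := by noncomm_ring
      rw [this, e3]
      have : c * (1 - b * c) * c' = (c * c') - c * b * (c * c') := by noncomm_ring
      rw [this, hcc]; simp
    rw [mul_add, e1, e2]; simp
  have hd0 : a' + c' ≠ 0 := by
    intro h0
    rw [h0] at hd1
    simp only [zero_mul] at hd1
    -- then `1 = 0`, so `a = 0`
    apply ha0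
    have : a = a * 1 := by simp
    rw [this, ← hd1]; simp
  obtain ⟨d', hd', hdd, hdd'⟩ := hinv (a' + c') (A.add_mem ha' hc') hd0
  have hEq : c * b * a = d' := by
    calc c * b * a = (c * b * a) * ((a' + c') * d') := by rw [hdd]; simp
      _ = ((c * b * a) * (a' + c')) * d' := by noncomm_ring
      _ = d' := by rw [hd2]; simp
  have hmem : c * b * a ∈ A := hEq ▸ hd'
  have e : a * b * a = a - c * b * a := by
    rw [hc]
    have : (b' - a) * b * a = (b' * b) * a - a * b * a := by noncomm_ring
    rw [this, hbb']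
    simp
  rw [e]
  exact A.sub_mem ha hmem

theorem hua_polar (h1 : (1 : R) ∈ A) (hinv : ∀ a ∈ A, a ≠ 0 → ∃ b ∈ A, a * b = 1 ∧ b * a = 1)
    {a b c : R} (ha : a ∈ A) (hb : b ∈ A) (hc : c ∈ A) : a * b * c + c * b * a ∈ A := by
  have e : a * b * c + c * b * a = (a + c) * b * (a + c) - a * b * a - c * b * c := by
    noncomm_ring
  rw [e]
  exact A.sub_mem (A.sub_mem (hua A h1 hinv (A.add_mem ha hc) hb) (hua A h1 hinv ha hb))
    (hua A h1 hinv hc hb)

end Hua

section Generic

variable {m : ℕ}

local notation "Mat" => Matrix (Fin (m + 1)) (Fin (m + 1)) (ZMod 2)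

/-- The generic element of the span of the `b i`. -/
noncomputable def gen (b : Fin (m + 1) → Mat) :
    Matrix (Fin (m + 1)) (Fin (m + 1)) (MvPolynomial (Fin (m + 1)) (ZMod 2)) :=
  fun r s => ∑ i, X i * C (b i r s)

theorem eval_det (b : Fin (m + 1) → Mat) (x : Fin (m + 1) → ZMod 2) :
    eval x (gen b).det = (∑ i, x i • b i).det := by
  have h1 := RingHom.map_det (eval x) (gen b)
  rw [h1]
  congr 1
  ext r s
  simp [gen, Matrix.sum_apply]

theorem totalDegree_det_le (b : Fin (m + 1) → Mat) : (gen b).det.totalDegree ≤ m + 1 := by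
  rw [Matrix.det_apply]
  refine (totalDegree_finset_sum _ _).trans (Finset.sup_le fun σ _ => ?_)
  have hprod : (∏ i, gen b (σ i) i).totalDegree ≤ m + 1 := by
    refine (totalDegree_finset_prod _ _).trans ?_
    have : ∀ i ∈ Finset.univ, (gen b (σ i) i).totalDegree ≤ 1 := by
      intro i _
      refine (totalDegree_finset_sum _ _).trans (Finset.sup_le fun j _ => ?_)
      refine (totalDegree_mul _ _).trans ?_
      simp [totalDegree_X]
    calc _ ≤ ∑ _i : Fin (m + 1), 1 := Finset.sum_le_sum this
      _ = m + 1 := by simp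
  rcases Int.units_eq_one_or (Equiv.Perm.sign σ) with h | h
  · rw [h, one_smul]; exact hprod
  · rw [h, Units.neg_smul, one_smul, totalDegree_neg]; exact hprod

theorem irreducible_det (b : Fin (m + 1) → Mat)
    (hnz : ∀ x : Fin (m + 1) → ZMod 2, x ≠ 0 → (∑ i, x i • b i).det ≠ 0) :
    Irreducible (gen b).det := by
  classical
  have h0 : eval 0 (gen b).det = 0 := by
    rw [eval_det]; simp [Matrix.det_zero]
  have hv : ∀ x : Fin (m + 1) → ZMod 2, x ≠ 0 → eval x (gen b).det ≠ 0 := by
    intro x hx
    rw [eval_det]; exact hnz x hx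
  have hne : (gen b).det ≠ 0 := by
    intro he
    have h1 : (fun _ => 1 : Fin (m + 1) → ZMod 2) ≠ 0 := by
      intro h2
      have := congrFun h2 0
      simp at this
    apply hv _ h1
    rw [he]; simp
  have hzero : ∀ g : MvPolynomial (Fin (m + 1)) (ZMod 2), g.totalDegree < m + 1 → eval 0 g = 0 →
      ∃ x : Fin (m + 1) → ZMod 2, x ≠ 0 ∧ eval x g = 0 := by
    intro g hg hg0
    have hc : g.totalDegree < Fintype.card (Fin (m + 1)) := by simpa using hg
    have h2 := char_dvd_card_solutions (K := ZMod 2) 2 hc
    by_contra hno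
    push Not at hno
    have h3 : Fintype.card { x : Fin (m + 1) → ZMod 2 // eval x g = 0 } = 1 := by
      rw [Fintype.card_eq_one_iff]
      refine ⟨⟨0, hg0⟩, fun y => Subtype.ext ?_⟩
      by_contra hy
      exact hno y.1 hy y.2
    rw [h3] at h2
    omega
  refine ⟨fun hu => ?_, ?_⟩
  · have := hu.map (eval (0 : Fin (m + 1) → ZMod 2))
    rw [h0] at this
    simp at this
  · intro g k hgk
    by_contra hno
    push Not at hno
    obtain ⟨hg, hk⟩ := hno
    have hg0 : g ≠ 0 := by
      rintro rfl
      exact hne (by rw [hgk]; simp)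
    have hk0 : k ≠ 0 := by
      rintro rfl
      exact hne (by rw [hgk]; simp)
    have hpos : ∀ p : MvPolynomial (Fin (m + 1)) (ZMod 2), p ≠ 0 → ¬ IsUnit p → 0 < p.totalDegree := by
      intro p hp hu
      rw [Nat.pos_iff_ne_zero]
      intro h1
      have h2 := totalDegree_eq_zero_iff_eq_C.1 h1
      apply hu
      rw [h2]
      have ha : coeff 0 p ≠ 0 := by
        intro h3
        rw [h3] at h2
        simp only [map_zero] at h2
        exact hp h2
      exact (IsUnit.mk0 _ ha).map C
    have hd := totalDegree_det_le b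
    rw [hgk, totalDegree_mul_of_isDomain hg0 hk0] at hd
    have hgp := hpos g hg0 hg
    have hkp := hpos k hk0 hk
    have h1 : eval 0 g * eval 0 k = 0 := by
      rw [← map_mul, ← hgk]; exact h0
    rcases mul_eq_zero.1 h1 with h2 | h2
    · obtain ⟨x, hx, hxz⟩ := hzero g (by omega) h2
      apply hv x hx
      rw [hgk, map_mul, hxz, zero_mul]
    · obtain ⟨x, hx, hxz⟩ := hzero k (by omega) h2
      apply hv x hx
      rw [hgk, map_mul, hxz, mul_zero]

end Generic

section Comm

variable {m : ℕ}

local notation "Mat" => Matrix (Fin (m + 1)) (Fin (m + 1)) (ZMod 2)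
local notation "Rr" => MvPolynomial (Fin m) (ZMod 2)

/-- Minus the generic element in the variables other than the first. -/
noncomputable def genY (b : Fin (m + 1) → Mat) : Matrix (Fin (m + 1)) (Fin (m + 1)) Rr :=
  fun r s => - ∑ i : Fin m, X i * C (b i.succ r s)

theorem finSucc_C (c : ZMod 2) :
    finSuccEquiv (ZMod 2) m (C c) = Polynomial.C (C c) := by
  simp [finSuccEquiv_apply]

theorem finSucc_det (b : Fin (m + 1) → Mat) (hb0 : b 0 = 1) :
    finSuccEquiv (ZMod 2) m (gen b).det = (genY b).charpoly := by
  set f : MvPolynomial (Fin (m + 1)) (ZMod 2) →+* Polynomial Rr :=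
    (finSuccEquiv (ZMod 2) m).toRingEquiv.toRingHom with hf
  have h1 := RingHom.map_det f (gen b)
  have hfa : ∀ p, f p = finSuccEquiv (ZMod 2) m p := fun p => rfl
  have h2 : f.mapMatrix (gen b) = Matrix.charmatrix (genY b) := by
    refine Matrix.ext fun r s => ?_
    rw [RingHom.mapMatrix_apply, Matrix.map_apply, Matrix.charmatrix_apply, hfa]
    simp only [gen, genY, Fin.sum_univ_succ, hb0, map_add, map_mul,
      map_sum, map_neg, sub_neg_eq_add]
    have e1 : ∀ i : Fin m, (finSuccEquiv (ZMod 2) m) (X i.succ) * (finSuccEquiv (ZMod 2) m) (C (b i.succ r s))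
        = Polynomial.C (X i) * Polynomial.C (C (b i.succ r s)) := by
      intro i
      rw [finSuccEquiv_X_succ, finSucc_C]
    have e2 : (finSuccEquiv (ZMod 2) m) (X 0) * (finSuccEquiv (ZMod 2) m) (C ((1 : Mat) r s))
        = Matrix.diagonal (fun _ => Polynomial.X) r s := by
      rw [finSuccEquiv_X_zero, finSucc_C]
      by_cases hrs : r = s
      · subst hrs; simp
      · simp [Matrix.one_apply_ne hrs, Matrix.diagonal_apply_ne _ hrs]
    rw [e2]
    simp only [e1]
  rw [← hfa, h1, h2]
  rfl

/-- A triple `span_induction` transfer to an extension of scalars. -/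
theorem comm_basis (b : Fin (m + 1) → Mat) (hb0 : b 0 = 1)
    (hnz : ∀ x : Fin (m + 1) → ZMod 2, x ≠ 0 → (∑ i, x i • b i).det ≠ 0)
    (J1 : ∀ a ∈ Submodule.span (ZMod 2) (Set.range b), ∀ c ∈ Submodule.span (ZMod 2) (Set.range b),
      ∀ d ∈ Submodule.span (ZMod 2) (Set.range b),
        a * c * d + d * c * a ∈ Submodule.span (ZMod 2) (Set.range b))
    (J2 : ∀ a ∈ Submodule.span (ZMod 2) (Set.range b), ∀ c ∈ Submodule.span (ZMod 2) (Set.range b),
        a * c * a ∈ Submodule.span (ZMod 2) (Set.range b))
    (i j : Fin (m + 1)) : b i * b j = b j * b i := by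
  classical
  let E := FractionRing Rr
  let ι₀ : ZMod 2 →+* E := (algebraMap Rr E).comp C
  let ι : Mat →+* Matrix (Fin (m + 1)) (Fin (m + 1)) E := ι₀.mapMatrix
  let Y : Matrix (Fin (m + 1)) (Fin (m + 1)) E := (genY b).map (algebraMap Rr E)
  -- irreducibility of the characteristic polynomial of `Y`
  have hirr : Irreducible Y.charpoly := by
    have h1 : Irreducible (genY b).charpoly := by
      rw [← finSucc_det b hb0]
      exact (MulEquiv.irreducible_iff (finSuccEquiv (ZMod 2) m)).2 (irreducible_det b hnz)
    have h2 : Y.charpoly = (genY b).charpoly.map (algebraMap Rr E) := by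
      simpa [Y] using Matrix.charpoly_map (genY b) (algebraMap Rr E)
    rw [h2]
    exact ((Matrix.charpoly_monic (genY b)).irreducible_iff_irreducible_map_fraction_map).1 h1
  -- the minimal polynomial has full degree
  have hmin : (minpoly E Y).natDegree = m + 1 := by
    have hd : minpoly E Y ∣ Y.charpoly := minpoly.dvd E Y (Matrix.aeval_self_charpoly Y)
    have hint : IsIntegral E Y := Algebra.IsIntegral.isIntegral Y
    obtain ⟨k, hk⟩ := hd
    have hu := hirr.isUnit_or_isUnit hk
    have hnu : ¬ IsUnit (minpoly E Y) := minpoly.not_isUnit E Y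
    have hku : IsUnit k := hu.resolve_left hnu
    have hass : Associated (minpoly E Y) Y.charpoly := ⟨hku.unit, hk.symm⟩
    have heq := Polynomial.eq_of_monic_of_associated (minpoly.monic hint)
      (Matrix.charpoly_monic Y) hass
    rw [heq, Matrix.charpoly_natDegree_eq_dim]
    simp
  -- the `E`-span of the images of the `b i`
  set SE : Submodule E (Matrix (Fin (m + 1)) (Fin (m + 1)) E) :=
    Submodule.span E (Set.range fun i => ι (b i)) with hSE
  have hι : ∀ a ∈ Submodule.span (ZMod 2) (Set.range b), ι a ∈ SE := by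
    intro a ha
    induction ha using Submodule.span_induction with
    | mem x hx =>
      obtain ⟨i, rfl⟩ := hx
      exact Submodule.subset_span ⟨i, rfl⟩
    | zero => simp
    | add x y _ _ hx hy => rw [map_add]; exact SE.add_mem hx hy
    | smul c x _ hx =>
      have hc : c = 0 ∨ c = 1 := by revert c; decide
      rcases hc with rfl | rfl
      · simp
      · simpa using hx
  have hb : ∀ k, b k ∈ Submodule.span (ZMod 2) (Set.range b) := fun k =>
    Submodule.subset_span ⟨k, rfl⟩
  -- Jordan-type identities over `E`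
  have hT : ∀ x ∈ SE, ∀ y ∈ SE, ∀ z ∈ SE, x * y * z + z * y * x ∈ SE := by
    intro x hx y hy z hz
    induction hx using Submodule.span_induction with
    | zero => simp
    | add x x' _ _ h h' =>
      have e : (x + x') * y * z + z * y * (x + x') = (x * y * z + z * y * x) + (x' * y * z + z * y * x') := by
        noncomm_ring
      rw [e]; exact SE.add_mem h h'
    | smul c x _ h =>
      have e : (c • x) * y * z + z * y * (c • x) = c • (x * y * z + z * y * x) := by
        simp [smul_add, smul_mul_assoc, mul_smul_comm]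
      rw [e]; exact SE.smul_mem c h
    | mem x hx =>
      obtain ⟨i, rfl⟩ := hx
      induction hy using Submodule.span_induction with
      | zero => simp
      | add y y' _ _ h h' =>
        have e : ι (b i) * (y + y') * z + z * (y + y') * ι (b i)
            = (ι (b i) * y * z + z * y * ι (b i)) + (ι (b i) * y' * z + z * y' * ι (b i)) := by
          noncomm_ring
        rw [e]; exact SE.add_mem h h'
      | smul c y _ h =>
        have e : ι (b i) * (c • y) * z + z * (c • y) * ι (b i) = c • (ι (b i) * y * z + z * y * ι (b i)) := by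
          simp [smul_add, smul_mul_assoc, mul_smul_comm]
        rw [e]; exact SE.smul_mem c h
      | mem y hy =>
        obtain ⟨j, rfl⟩ := hy
        induction hz using Submodule.span_induction with
        | zero => simp
        | add z z' _ _ h h' =>
          have e : ι (b i) * ι (b j) * (z + z') + (z + z') * ι (b j) * ι (b i)
              = (ι (b i) * ι (b j) * z + z * ι (b j) * ι (b i))
                + (ι (b i) * ι (b j) * z' + z' * ι (b j) * ι (b i)) := by
            noncomm_ring
          rw [e]; exact SE.add_mem h h'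
        | smul c z _ h =>
          have e : ι (b i) * ι (b j) * (c • z) + (c • z) * ι (b j) * ι (b i)
              = c • (ι (b i) * ι (b j) * z + z * ι (b j) * ι (b i)) := by
            simp [smul_add, smul_mul_assoc, mul_smul_comm]
          rw [e]; exact SE.smul_mem c h
        | mem z hz =>
          obtain ⟨k, rfl⟩ := hz
          have := hι _ (J1 _ (hb i) _ (hb j) _ (hb k))
          simpa [map_add, map_mul] using this
  have hQ : ∀ x ∈ SE, ∀ y ∈ SE, x * y * x ∈ SE := by
    intro x hx y hy
    induction hx using Submodule.span_induction with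
    | zero => simp
    | add x x' hxm hxm' h h' =>
      have e : (x + x') * y * (x + x') = (x * y * x) + (x' * y * x') + (x * y * x' + x' * y * x) := by
        noncomm_ring
      rw [e]
      exact SE.add_mem (SE.add_mem h h') (hT x hxm y hy x' hxm')
    | smul c x _ h =>
      have e : (c • x) * y * (c • x) = (c * c) • (x * y * x) := by
        simp [smul_mul_assoc, mul_smul_comm, smul_smul]
      rw [e]; exact SE.smul_mem _ h
    | mem x hx =>
      obtain ⟨i, rfl⟩ := hx
      induction hy using Submodule.span_induction with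
      | zero => simp
      | add y y' _ _ h h' =>
        have e : ι (b i) * (y + y') * ι (b i) = ι (b i) * y * ι (b i) + ι (b i) * y' * ι (b i) := by
          noncomm_ring
        rw [e]; exact SE.add_mem h h'
      | smul c y _ h =>
        have e : ι (b i) * (c • y) * ι (b i) = c • (ι (b i) * y * ι (b i)) := by
          simp [smul_mul_assoc, mul_smul_comm]
        rw [e]; exact SE.smul_mem c h
      | mem y hy =>
        obtain ⟨j, rfl⟩ := hy
        have := hι _ (J2 _ (hb i) _ (hb j))
        simpa [map_mul] using this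
  -- powers of `Y` lie in `SE`
  have h1mem : (1 : Matrix (Fin (m + 1)) (Fin (m + 1)) E) ∈ SE := by
    have : ι (b 0) = 1 := by rw [hb0, map_one]
    rw [← this]
    exact Submodule.subset_span ⟨0, rfl⟩
  have hYmem : Y ∈ SE := by
    have e : Y = ∑ k : Fin m, (- algebraMap Rr E (X k)) • ι (b k.succ) := by
      ext r s
      simp only [Y, genY, Matrix.map_apply, Matrix.sum_apply, Matrix.smul_apply, smul_eq_mul, ι,
        RingHom.mapMatrix_apply, ι₀, RingHom.comp_apply, map_neg, map_sum, map_mul]
      rw [← Finset.sum_neg_distrib]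
      refine Finset.sum_congr rfl fun k _ => ?_
      ring
    rw [e]
    exact SE.sum_mem fun k _ => SE.smul_mem _ (Submodule.subset_span ⟨k.succ, rfl⟩)
  have hpow : ∀ k : ℕ, Y ^ k ∈ SE ∧ Y ^ (k + 1) ∈ SE := by
    intro k
    induction k with
    | zero => simpa using ⟨h1mem, hYmem⟩
    | succ k ih =>
      refine ⟨ih.2, ?_⟩
      have := hQ Y hYmem _ ih.1
      have e : Y ^ (k + 1 + 1) = Y * Y ^ k * Y := by
        rw [pow_succ, pow_succ, mul_assoc, ← mul_assoc, ← pow_succ', pow_succ]
      rw [e]; exact this
  -- dimension count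
  set T : Submodule E (Matrix (Fin (m + 1)) (Fin (m + 1)) E) :=
    Submodule.span E (Set.range fun k : Fin (minpoly E Y).natDegree => Y ^ (k : ℕ)) with hTdef
  have hTle : T ≤ SE := by
    rw [hTdef, Submodule.span_le]
    rintro _ ⟨k, rfl⟩
    exact (hpow k).1
  have hTdim : Module.finrank E T = m + 1 := by
    have := finrank_span_eq_card (linearIndependent_pow (K := E) Y)
    rw [hTdef, this, hmin]
    simp
  have hSEdim : Module.finrank E SE ≤ m + 1 := by
    have := finrank_range_le_card (R := E) (fun i => ι (b i))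
    rw [Fintype.card_fin] at this
    exact this
  have hTeq : T = SE := by
    refine Submodule.eq_of_le_of_finrank_le hTle ?_
    rw [hTdim]; exact hSEdim
  -- `T` is commutative
  have hTcomm : ∀ x ∈ T, ∀ y ∈ T, x * y = y * x := by
    intro x hx y hy
    induction hx using Submodule.span_induction with
    | zero => simp
    | add x x' _ _ h h' => rw [add_mul, mul_add, h, h']
    | smul c x _ h => rw [smul_mul_assoc, mul_smul_comm, h]
    | mem x hx =>
      obtain ⟨k, rfl⟩ := hx
      induction hy using Submodule.span_induction with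
      | zero => simp
      | add y y' _ _ h h' => rw [add_mul, mul_add, h, h']
      | smul c y _ h => rw [smul_mul_assoc, mul_smul_comm, h]
      | mem y hy =>
        obtain ⟨l, rfl⟩ := hy
        exact (Commute.pow_pow_self Y _ _)
  -- conclusion
  have hinj : Function.Injective ι := by
    intro a c hac
    ext r s
    have := congrArg (fun M => M r s) hac
    simpa [ι, RingHom.mapMatrix_apply] using ι₀.injective this
  apply hinj
  rw [map_mul, map_mul]
  refine hTcomm _ ?_ _ ?_
  · rw [hTeq]; exact Submodule.subset_span ⟨i, rfl⟩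
  · rw [hTeq]; exact Submodule.subset_span ⟨j, rfl⟩

/-- The matrix version of the theorem: commutativity. -/
theorem comm_of_matrices (A : AddSubgroup Mat) (hcard : Nat.card A = 2 ^ (m + 1))
    (h1 : (1 : Mat) ∈ A) (hinv : ∀ a ∈ A, a ≠ 0 → ∃ c ∈ A, a * c = 1 ∧ c * a = 1) :
    ∀ a ∈ A, ∀ c ∈ A, a * c = c * a := by
  classical
  -- the `𝔽₂`-span
  let S : Submodule (ZMod 2) Mat := AddSubgroup.toZModSubmodule 2 A
  have hS : ∀ x, x ∈ S ↔ x ∈ A := fun x => by simp [S]
  have hcardS : Nat.card S = 2 ^ (m + 1) := by
    have : Nat.card S = Nat.card A := rfl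
    rw [this, hcard]
  have hfin : Module.finrank (ZMod 2) S = m + 1 := by
    have h := Module.natCard_eq_pow_finrank (K := ZMod 2) (V := S)
    rw [hcardS, Nat.card_zmod] at h
    exact (Nat.pow_right_injective (le_refl 2) h).symm
  -- a basis of `S` starting from `1`
  let y : S := ⟨1, (hS 1).2 h1⟩
  have hne : y ≠ 0 := by
    intro h
    have := congrArg Subtype.val h
    simp only [y] at this
    have h3 : (1 : Mat) (0 : Fin (m + 1)) 0 = 0 := by rw [this]; simp
    simp at h3
  obtain ⟨C, hC⟩ := Submodule.exists_isCompl (Submodule.span (ZMod 2) {y})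
  have hCdim : Module.finrank (ZMod 2) C = m := by
    have h2 := Submodule.finrank_add_eq_of_isCompl hC
    rw [finrank_span_singleton hne, hfin] at h2
    omega
  let BC : Module.Basis (Fin m) (ZMod 2) C := Module.finBasisOfFinrankEq (ZMod 2) C hCdim
  have hli : ∀ c : ZMod 2, ∀ x ∈ C, c • y + x = 0 → c = 0 := by
    intro c x hx h
    have h3 : x = -(c • y) := eq_neg_of_add_eq_zero_right h
    have h4 : x ∈ Submodule.span (ZMod 2) {y} := by
      rw [h3]; exact Submodule.neg_mem _ (Submodule.smul_mem _ _ (Submodule.mem_span_singleton_self y))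
    have h5 : x = 0 := by
      have := hC.inf_eq_bot
      have h6 : x ∈ Submodule.span (ZMod 2) {y} ⊓ C := ⟨h4, hx⟩
      rw [this] at h6
      simpa using h6
    rw [h5, add_zero] at h
    exact (smul_eq_zero.1 h).resolve_right hne
  have hsp : ∀ z : S, ∃ c : ZMod 2, z + c • y ∈ C := by
    intro z
    have h3 : z ∈ Submodule.span (ZMod 2) {y} ⊔ C := by rw [hC.sup_eq_top]; trivial
    obtain ⟨a, ha, x, hx, rfl⟩ := Submodule.mem_sup.1 h3
    obtain ⟨c, rfl⟩ := Submodule.mem_span_singleton.1 ha
    refine ⟨-c, ?_⟩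
    have : c • y + x + (-c) • y = x := by
      have h4 : (-c) • y = -(c • y) := neg_smul c y
      rw [h4]; abel
    rw [this]; exact hx
  let B' : Module.Basis (Fin (m + 1)) (ZMod 2) S := Module.Basis.mkFinCons y BC hli hsp
  have hB'0 : B' 0 = y := by
    simp [B', Module.Basis.coe_mkFinCons]
  let b : Fin (m + 1) → Mat := fun i => (B' i : Mat)
  have hb0 : b 0 = 1 := by simp only [b, hB'0, y]
  have hsum : ∀ x : Fin (m + 1) → ZMod 2, ∑ i, x i • b i = ((∑ i, x i • B' i : S) : Mat) := by
    intro x
    simp [b]
  have hnz : ∀ x : Fin (m + 1) → ZMod 2, x ≠ 0 → (∑ i, x i • b i).det ≠ 0 := by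
    intro x hx
    rw [hsum]
    have hmem : ((∑ i, x i • B' i : S) : Mat) ∈ A := (hS _).1 (Subtype.property _)
    have hne' : ((∑ i, x i • B' i : S) : Mat) ≠ 0 := by
      intro h0
      apply hx
      have h3 : (∑ i, x i • B' i : S) = 0 := Subtype.ext h0
      funext i
      exact (Fintype.linearIndependent_iff.1 B'.linearIndependent x h3) i
    obtain ⟨c, _, hac, _⟩ := hinv _ hmem hne'
    intro hd
    have := congrArg Matrix.det hac
    rw [Matrix.det_mul, hd, zero_mul, Matrix.det_one] at this
    exact zero_ne_one this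
  have hspan : Submodule.span (ZMod 2) (Set.range b) = S := by
    have h3 : Submodule.map S.subtype (Submodule.span (ZMod 2) (Set.range B')) = S := by
      rw [B'.span_eq]; simp
    rw [Submodule.map_span, ← Set.range_comp] at h3
    exact h3
  have hmem : ∀ x, x ∈ Submodule.span (ZMod 2) (Set.range b) ↔ x ∈ A := by
    intro x; rw [hspan]; exact hS x
  have hcb := comm_basis b hb0 hnz
    (fun a ha c hc d hd => (hmem _).2 (hua_polar A h1 hinv ((hmem _).1 ha) ((hmem _).1 hc) ((hmem _).1 hd)))
    (fun a ha c hc => (hmem _).2 (hua A h1 hinv ((hmem _).1 ha) ((hmem _).1 hc)))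
  intro a ha c hc
  have ha' := (hmem a).2 ha
  have hc' := (hmem c).2 hc
  induction ha' using Submodule.span_induction with
  | zero => simp
  | add x x' hx hx' h h' =>
    rw [add_mul, mul_add, h ((hmem _).1 hx), h' ((hmem _).1 hx')]
  | smul k x hx h => rw [smul_mul_assoc, mul_smul_comm, h ((hmem _).1 hx)]
  | mem x hx =>
    obtain ⟨i, rfl⟩ := hx
    induction hc' using Submodule.span_induction with
    | zero => simp
    | add x x' hx hx' h h' =>
      rw [add_mul, mul_add, h ((hmem _).1 hx), h' ((hmem _).1 hx')]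
    | smul k x hx h => rw [smul_mul_assoc, mul_smul_comm, h ((hmem _).1 hx)]
    | mem x hx =>
      obtain ⟨j, rfl⟩ := hx
      exact hcb i j

/-- The matrix version of the theorem: closure under products. -/
theorem mul_mem_of_matrices (A : AddSubgroup Mat) (hcard : Nat.card A = 2 ^ (m + 1))
    (h1 : (1 : Mat) ∈ A) (hinv : ∀ a ∈ A, a ≠ 0 → ∃ c ∈ A, a * c = 1 ∧ c * a = 1) :
    ∀ a ∈ A, ∀ c ∈ A, a * c ∈ A := by
  classical
  have hcomm := comm_of_matrices A hcard h1 hinv
  have h2M : ∀ x : Mat, x + x = 0 := by
    intro x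
    ext r s
    simp only [Matrix.add_apply, Matrix.zero_apply]
    generalize x r s = t
    revert t; decide
  -- squaring on `A`
  let sq : A → A := fun a => ⟨a.1 * 1 * a.1, hua A h1 hinv a.2 h1⟩
  have hsqadd : ∀ a c : A, (sq (a + c)).1 = (sq a).1 + (sq c).1 := by
    intro a c
    simp only [sq, AddSubgroup.coe_add, mul_one]
    have e := hcomm a.1 a.2 c.1 c.2
    have : (a.1 + c.1) * (a.1 + c.1) = a.1 * a.1 + c.1 * c.1 + (a.1 * c.1 + c.1 * a.1) := by
      noncomm_ring
    rw [this, e, h2M, add_zero]
  have hinj : Function.Injective sq := by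
    intro a c h
    have h3 : sq (a - c) = 0 := by
      apply Subtype.ext
      have e : a - c = a + c := by
        apply Subtype.ext
        simp only [AddSubgroup.coe_sub, AddSubgroup.coe_add]
        rw [sub_eq_iff_eq_add, add_assoc, h2M, add_zero]
      rw [e, hsqadd, ← congrArg Subtype.val h, h2M]; rfl
    by_contra hne
    have hne' : (a - c).1 ≠ 0 := by
      intro h0
      exact hne (sub_eq_zero.1 (Subtype.ext h0))
    obtain ⟨d, _, hd, _⟩ := hinv _ (a - c).2 hne'
    have h4 : (a - c).1 * 1 * (a - c).1 = 0 := congrArg Subtype.val h3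
    rw [mul_one] at h4
    apply hne'
    calc (a - c).1 = (a - c).1 * ((a - c).1 * d) := by rw [hd, mul_one]
      _ = ((a - c).1 * (a - c).1) * d := by rw [mul_assoc]
      _ = 0 := by rw [h4, zero_mul]
  have hsurj : Function.Surjective sq := (Finite.injective_iff_surjective).1 hinj
  intro a ha c hc
  obtain ⟨d, hd⟩ := hsurj ⟨a, ha⟩
  have hd' : d.1 * 1 * d.1 = a := congrArg Subtype.val hd
  rw [mul_one] at hd'
  rw [← hd', mul_assoc, hcomm d.1 d.2 c hc, ← mul_assoc]
  exact hua A h1 hinv d.2 hc

end Comm

section EndVersion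

variable {W : Type*} [AddCommGroup W] [Finite W]

/-- The endomorphism version: a maximal additive group of invertibles is a commutative ring. -/
theorem end_comm_mul (h2 : ∀ v : W, v + v = 0) (A : AddSubgroup (AddMonoid.End W))
    (hcard : Nat.card A = Nat.card W) (h1 : (1 : AddMonoid.End W) ∈ A)
    (hinv : ∀ a ∈ A, a ≠ 0 → ∃ c ∈ A, a * c = 1 ∧ c * a = 1) :
    (∀ a ∈ A, ∀ c ∈ A, a * c = c * a) ∧ (∀ a ∈ A, ∀ c ∈ A, a * c ∈ A) := by
  classical
  letI : Module (ZMod 2) W := AddCommGroup.zmodModule (by intro x; rw [two_nsmul]; exact h2 x)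
  haveI : Module.Finite (ZMod 2) W := Module.Finite.of_finite
  obtain ⟨n, hn⟩ : ∃ n, Module.finrank (ZMod 2) W = n := ⟨_, rfl⟩
  have hcardW : Nat.card W = 2 ^ n := by
    have h := Module.natCard_eq_pow_finrank (K := ZMod 2) (V := W)
    rw [h, Nat.card_zmod, hn]
  cases n with
  | zero =>
    have hs : Subsingleton W := by
      rw [pow_zero] at hcardW
      exact (Nat.card_eq_one_iff_unique.1 hcardW).1
    have hs' : Subsingleton (AddMonoid.End W) :=
      ⟨fun f g => AddMonoidHom.ext fun x => Subsingleton.elim _ _⟩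
    refine ⟨fun a _ c _ => Subsingleton.elim _ _, fun a ha c _ => ?_⟩
    rw [Subsingleton.elim (a * c) a]; exact ha
  | succ m =>
    let B := Module.finBasisOfFinrankEq (ZMod 2) W hn
    let ψ : AddMonoid.End W →+* Module.End (ZMod 2) W :=
      { toFun := fun f => AddMonoidHom.toZModLinearMap 2 f
        map_one' := rfl
        map_mul' := fun _ _ => rfl
        map_zero' := rfl
        map_add' := fun _ _ => rfl }
    have hψ : Function.Injective ψ := by
      intro f g h
      ext x
      exact congrArg (fun l : Module.End (ZMod 2) W => l x) h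
    let θ : AddMonoid.End W →+* Matrix (Fin (m + 1)) (Fin (m + 1)) (ZMod 2) :=
      (LinearMap.toMatrixAlgEquiv B).toRingEquiv.toRingHom.comp ψ
    have hθ : Function.Injective θ :=
      (LinearMap.toMatrixAlgEquiv B).toRingEquiv.injective.comp hψ
    let A' : AddSubgroup (Matrix (Fin (m + 1)) (Fin (m + 1)) (ZMod 2)) :=
      A.map θ.toAddMonoidHom
    have hA' : ∀ x, θ x ∈ A' ↔ x ∈ A := by
      intro x
      constructor
      · rintro ⟨y, hy, hxy⟩
        have := hθ hxy
        rwa [← this]
      · exact fun h => ⟨x, h, rfl⟩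
    have hcard' : Nat.card A' = 2 ^ (m + 1) := by
      rw [← hcardW, ← hcard]
      exact (Nat.card_congr (AddSubgroup.equivMapOfInjective A θ.toAddMonoidHom hθ).toEquiv).symm
    have h1' : (1 : Matrix (Fin (m + 1)) (Fin (m + 1)) (ZMod 2)) ∈ A' := by
      rw [← map_one θ]; exact (hA' 1).2 h1
    have hinv' : ∀ a ∈ A', a ≠ 0 → ∃ c ∈ A', a * c = 1 ∧ c * a = 1 := by
      rintro _ ⟨x, hx, rfl⟩ hne
      have hx0 : x ≠ 0 := by
        rintro rfl
        exact hne (map_zero θ)
      obtain ⟨c, hc, h3, h4⟩ := hinv x hx hx0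
      refine ⟨θ c, (hA' c).2 hc, ?_, ?_⟩
      · change θ x * θ c = 1
        rw [← map_mul, h3, map_one]
      · change θ c * θ x = 1
        rw [← map_mul, h4, map_one]
    have hc := comm_of_matrices A' hcard' h1' hinv'
    have hm := mul_mem_of_matrices A' hcard' h1' hinv'
    refine ⟨fun a ha c hc' => hθ ?_, fun a ha c hc' => ?_⟩
    · rw [map_mul, map_mul]; exact hc _ ((hA' a).2 ha) _ ((hA' c).2 hc')
    · rw [← hA', map_mul]; exact hm _ ((hA' a).2 ha) _ ((hA' c).2 hc')

end EndVersion

end Cfsg.Agent.Lib.TISub.Field
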