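import Mathlib
import Cfsg.Agent.Lib.TISub.Field

/-! Coordinates: two mutually inverse additive groups of homomorphisms give a field. -/

set_option autoImplicit false

namespace Cfsg.Agent.Lib.TISub.Coord

open Cfsg.Agent.Lib.TISub.Field

universe u

variable {V U : Type u} [AddCommGroup V] [AddCommGroup U] [Finite V]

theorem coord (h2 : ∀ v : V, v + v = 0) (Λ : AddSubgroup (U →+ V)) (K : AddSubgroup (V →+ U))
    (htr : ∀ u : U, u ≠ 0 → ∀ v : V, ∃ l ∈ Λ, l u = v)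
    (hiv : ∀ l ∈ Λ, l ≠ 0 → ∃ k ∈ K, (∀ u, k (l u) = u) ∧ (∀ v, l (k v) = v))
    (l₀ : U →+ V) (hl₀ : l₀ ∈ Λ) (hl₀0 : l₀ ≠ 0)
    (h6 : ∀ k ∈ K, l₀.comp (k.comp l₀) ∈ Λ) :
    ∃ (F : Type u) (_ : Field F) (_ : Finite F) (eV : F ≃+ V) (eU : F ≃+ U),
      (∀ l ∈ Λ, ∃ a : F, ∀ x, l (eU x) = eV (a * x)) ∧
      (∀ a : F, ∃ l ∈ Λ, ∀ x, l (eU x) = eV (a * x)) ∧
      (∀ k ∈ K, ∃ b : F, ∀ x, k (eV x) = eU (b * x)) ∧
      (∀ b : F, ∃ k ∈ K, ∀ x, k (eV x) = eU (b * x)) := by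
  classical
  obtain ⟨k₀, hk₀, hk₀l, hlk₀⟩ := hiv l₀ hl₀ hl₀0
  -- composition with `k₀`
  let cmp : (U →+ V) →+ AddMonoid.End V :=
    { toFun := fun l => l.comp k₀
      map_zero' := rfl
      map_add' := fun _ _ => rfl }
  have hcmp : ∀ l x, cmp l x = l (k₀ x) := fun _ _ => rfl
  let A : AddSubgroup (AddMonoid.End V) := Λ.map cmp
  have hAmem : ∀ a, a ∈ A ↔ ∃ l ∈ Λ, ∀ x, a x = l (k₀ x) := by
    intro a
    constructor
    · rintro ⟨l, hl, rfl⟩
      exact ⟨l, hl, fun x => rfl⟩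
    · rintro ⟨l, hl, he⟩
      exact ⟨l, hl, AddMonoidHom.ext fun x => (he x).symm⟩
  have h1 : (1 : AddMonoid.End V) ∈ A := (hAmem 1).2 ⟨l₀, hl₀, fun x => (hlk₀ x).symm⟩
  -- for `k ∈ K`, `l₀ k ∈ A`
  have hlk : ∀ k ∈ K, ((l₀.comp k : V →+ V) : AddMonoid.End V) ∈ A := by
    intro k hk
    refine (hAmem _).2 ⟨_, h6 k hk, fun x => ?_⟩
    change l₀ (k x) = l₀ (k (l₀ (k₀ x)))
    rw [hlk₀]
  have hinv : ∀ a ∈ A, a ≠ 0 → ∃ c ∈ A, a * c = 1 ∧ c * a = 1 := by
    intro a ha ha0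
    obtain ⟨l, hl, he⟩ := (hAmem a).1 ha
    have hl0 : l ≠ 0 := by
      rintro rfl
      apply ha0
      ext x
      rw [he]; rfl
    obtain ⟨k, hk, hkl, hlk'⟩ := hiv l hl hl0
    refine ⟨_, hlk k hk, ?_, ?_⟩
    · ext x
      change a (l₀ (k x)) = x
      rw [he, hk₀l, hlk']
    · ext x
      change l₀ (k (a x)) = x
      rw [he, hkl, hlk₀]
  -- a non-zero vector
  obtain ⟨v₀, hv₀⟩ : ∃ v₀ : V, v₀ ≠ 0 := by
    by_contra hc
    push Not at hc
    apply hl₀0
    ext x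
    exact hc _
  have hu₀ : k₀ v₀ ≠ 0 := by
    intro h
    apply hv₀
    rw [← hlk₀ v₀, h, map_zero]
  have hevinj : ∀ a ∈ A, a v₀ = 0 → a = 0 := by
    intro a ha hav
    obtain ⟨l, hl, he⟩ := (hAmem a).1 ha
    by_contra ha0
    have hl0 : l ≠ 0 := by
      rintro rfl
      apply ha0
      ext x
      rw [he]; rfl
    obtain ⟨k, _, hkl, _⟩ := hiv l hl hl0
    apply hu₀
    rw [← hkl (k₀ v₀), ← he, hav, map_zero]
  have hevsurj : ∀ v : V, ∃ a ∈ A, a v₀ = v := by
    intro v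
    obtain ⟨l, hl, hlv⟩ := htr _ hu₀ v
    exact ⟨cmp l, ⟨l, hl, rfl⟩, hlv⟩
  have hcard : Nat.card A = Nat.card V := by
    let f : A → V := fun a => a.1 v₀
    have hf : Function.Bijective f := by
      constructor
      · intro a c hac
        have h3 : (a - c).1 v₀ = 0 := by
          change a.1 v₀ - c.1 v₀ = 0
          rw [show a.1 v₀ = c.1 v₀ from hac, sub_self]
        have h4 := hevinj _ (a - c).2 h3
        exact sub_eq_zero.1 (Subtype.ext h4)
      · intro v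
        obtain ⟨a, ha, hav⟩ := hevsurj v
        exact ⟨⟨a, ha⟩, hav⟩
    exact Nat.card_eq_of_bijective f hf
  obtain ⟨hcomm, hmul⟩ := end_comm_mul h2 A hcard h1 hinv
  -- the field
  let R : Subring (AddMonoid.End V) :=
    { A with
      one_mem' := h1
      mul_mem' := fun {a c} ha hc => hmul a ha c hc }
  have hRmem : ∀ a, a ∈ R ↔ a ∈ A := fun a => Iff.rfl
  have hfield : IsField R :=
    { exists_pair_ne := by
        refine ⟨0, 1, fun h => hv₀ ?_⟩
        have h3 : ((0 : R) : AddMonoid.End V) = ((1 : R) : AddMonoid.End V) := congrArg Subtype.val h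
        have h4 : (0 : AddMonoid.End V) = 1 := h3
        have h5 := congrArg (fun f : AddMonoid.End V => f v₀) h4
        exact h5.symm
      mul_comm := fun a c => Subtype.ext (hcomm a.1 a.2 c.1 c.2)
      mul_inv_cancel := by
        intro a ha
        have ha' : a.1 ≠ 0 := fun h => ha (Subtype.ext h)
        obtain ⟨c, hc, hac, _⟩ := hinv a.1 a.2 ha'
        exact ⟨⟨c, hc⟩, Subtype.ext hac⟩ }
  letI fR : Field R := hfield.toField
  haveI : Finite (AddMonoid.End V) := by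
    haveI : Finite (V → V) := inferInstance
    exact Finite.of_injective (fun f : AddMonoid.End V => (f : V → V)) DFunLike.coe_injective
  let evl : R →+ V :=
    { toFun := fun a => a.1 v₀
      map_zero' := rfl
      map_add' := fun _ _ => rfl }
  let eV : R ≃+ V := AddEquiv.ofBijective evl
    (by
      constructor
      · intro a c hac
        have h3 : (a - c).1 v₀ = 0 := by
          change a.1 v₀ - c.1 v₀ = 0
          have : a.1 v₀ = c.1 v₀ := hac
          rw [this, sub_self]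
        have h4 := hevinj _ (a - c).2 h3
        exact sub_eq_zero.1 (Subtype.ext h4)
      · intro v
        obtain ⟨a, ha, hav⟩ := hevsurj v
        exact ⟨⟨a, ha⟩, hav⟩)
  have heV : ∀ a : R, eV a = a.1 v₀ := fun _ => rfl
  let κ : V ≃+ U :=
    { toFun := k₀
      invFun := l₀
      left_inv := hlk₀
      right_inv := hk₀l
      map_add' := k₀.map_add }
  let eU : R ≃+ U := eV.trans κ
  have heU : ∀ a : R, eU a = k₀ (a.1 v₀) := fun _ => rfl
  have hmulv : ∀ a c : R, (a * c).1 v₀ = a.1 (c.1 v₀) := fun _ _ => rfl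
  refine ⟨R, fR, inferInstance, eV, eU, ?_, ?_, ?_, ?_⟩
  · intro l hl
    refine ⟨⟨cmp l, ⟨l, hl, rfl⟩⟩, fun x => ?_⟩
    rw [heU, heV, hmulv]
    rfl
  · rintro ⟨a, ha⟩
    obtain ⟨l, hl, he⟩ := (hAmem a).1 ha
    refine ⟨l, hl, fun x => ?_⟩
    rw [heU, heV, hmulv, ← he]
  · intro k hk
    refine ⟨⟨_, hlk k hk⟩, fun x => ?_⟩
    rw [heU, heV, hmulv]
    change k (x.1 v₀) = k₀ (l₀ (k (x.1 v₀)))
    rw [hk₀l]
  · rintro ⟨b, hb⟩
    -- `b = l₀ k`
    obtain ⟨k, hk, he⟩ : ∃ k ∈ K, b = ((l₀.comp k : V →+ V) : AddMonoid.End V) := by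
      by_cases hb0 : b = 0
      · refine ⟨0, K.zero_mem, ?_⟩
        rw [hb0]
        ext x
        change 0 = l₀ 0
        rw [map_zero]
      · obtain ⟨c, hc, hbc, hcb⟩ := hinv b hb hb0
        obtain ⟨l, hl, hle⟩ := (hAmem c).1 hc
        have hl0 : l ≠ 0 := by
          rintro rfl
          have h3 : c = 0 := by
            ext x
            rw [hle]; rfl
          rw [h3, mul_zero] at hbc
          apply hv₀
          have h5 := congrArg (fun f : AddMonoid.End V => f v₀) hbc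
          exact h5.symm
        obtain ⟨k, hk, hkl, hlk'⟩ := hiv l hl hl0
        refine ⟨k, hk, ?_⟩
        ext x
        change b x = l₀ (k x)
        have h3 : x = c (l₀ (k x)) := by
          rw [hle, hk₀l, hlk']
        conv_lhs => rw [h3]
        have h5 := congrArg (fun f : AddMonoid.End V => f (l₀ (k x))) hbc
        exact h5
    refine ⟨k, hk, fun x => ?_⟩
    rw [heU, heV, hmulv]
    change k (x.1 v₀) = k₀ (b (x.1 v₀))
    rw [he]
    change k (x.1 v₀) = k₀ (l₀ (k (x.1 v₀)))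
    rw [hk₀l]

end Cfsg.Agent.Lib.TISub.Coord
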