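import Mathlib
import Cfsg.Agent.Lib.TISub.Basic

/-! The subgroup generated by the conjugates of `V` in `O₂(N(V))` and the planes `V U`. -/

set_option autoImplicit false

namespace Cfsg.Agent.Lib.TISub.Plane

open Subgroup Cfsg Cfsg.Agent.Lib.PGroup.WeaklyClosed Cfsg.Agent.Lib.TISub.Basic
open scoped commutatorElement

variable {G : Type*} [Group G] [Finite G]

/-- `T` is a conjugate of `V`. -/
def CC (V T : Subgroup G) : Prop := ∃ x : G, T = cj x V

/-- The subgroup generated by the conjugates of `V` in `O₂(N(V))`. -/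
def NN (V : Subgroup G) : Subgroup G := sSup {T | CC V T ∧ T ≤ QQ V}

variable {V : Subgroup G}

theorem CC.self (V : Subgroup G) : CC V V := ⟨1, by simp⟩

theorem CC.cj {T : Subgroup G} (hT : CC V T) (g : G) : CC V (cj g T) := by
  obtain ⟨x, rfl⟩ := hT
  exact ⟨g * x, (cj_mul g x V).symm⟩

theorem CC.eq (h : Hyp V) {T₁ T₂ : Subgroup G} (h1 : CC V T₁) (h2 : CC V T₂) {t : G}
    (ht1 : t ∈ T₁) (ht2 : t ∈ T₂) (ht : t ≠ 1) : T₁ = T₂ := by
  obtain ⟨x, rfl⟩ := h1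
  obtain ⟨y, rfl⟩ := h2
  exact h.ti_eq ht1 ht2 ht

theorem CC.norm (h : Hyp V) {T : Subgroup G} (h1 : CC V T) {t e : G} (ht : t ∈ T) (ht1 : t ≠ 1)
    (he : e * t = t * e) : e ∈ normalizer (T : Set G) := by
  obtain ⟨x, rfl⟩ := h1
  exact h.norm_of_comm ht ht1 he

theorem CC.comm (h : Hyp V) {T : Subgroup G} (h1 : CC V T) : ∀ a ∈ T, ∀ b ∈ T, a * b = b * a := by
  obtain ⟨x, rfl⟩ := h1
  exact (h.conj x).comm

theorem CC.sq (h : Hyp V) {T : Subgroup G} (h1 : CC V T) : ∀ a ∈ T, a * a = 1 := by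
  obtain ⟨x, rfl⟩ := h1
  exact (h.conj x).sq

theorem CC.card {T : Subgroup G} (h1 : CC V T) : Nat.card T = Nat.card V := by
  obtain ⟨x, rfl⟩ := h1
  exact card_cj x V

theorem CC.pg (h : Hyp V) {T : Subgroup G} (h1 : CC V T) : IsPGroup 2 T := by
  obtain ⟨x, rfl⟩ := h1
  exact isPGroup_cj h.pg

theorem v_le_qq (h : Hyp V) : V ≤ QQ V :=
  le_qq le_normalizer h.pg fun m hm a ha => (mem_normalizer_iff.1 hm a).1 ha

theorem nn_le_qq : NN V ≤ QQ V := sSup_le fun _ hT => hT.2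

theorem v_le_nn (h : Hyp V) : V ≤ NN V := le_sSup ⟨CC.self V, v_le_qq h⟩

theorem le_nn {T : Subgroup G} (hT : CC V T) (hq : T ≤ QQ V) : T ≤ NN V := le_sSup ⟨hT, hq⟩

theorem nn_pg : IsPGroup 2 (NN V) := (qq_pgroup V).to_le nn_le_qq

theorem nn_le_norm : NN V ≤ normalizer (V : Set G) := nn_le_qq.trans (qq_le V)

theorem comm_of_qq (h : Hyp V) {T : Subgroup G} (hT : CC V T) (hq : T ≤ QQ V) :
    ∀ t ∈ T, ∀ v ∈ V, t * v = v * t := by
  obtain ⟨x, rfl⟩ := hT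
  exact h.comm_of_norm (hq.trans (qq_le V))

theorem nn_comm (h : Hyp V) : ∀ r ∈ NN V, ∀ v ∈ V, r * v = v * r := by
  have : NN V ≤ centralizer (V : Set G) := sSup_le fun T hT t ht =>
    mem_centralizer_iff.2 fun v hv => (comm_of_qq h hT.1 hT.2 t ht v hv).symm
  intro r hr v hv
  exact ((mem_centralizer_iff.1 (this hr)) v hv).symm

theorem cj_qq_of_mem {m : G} (hm : m ∈ normalizer (V : Set G)) : cj m (QQ V) = QQ V := by
  rw [← qq_cj, cj_eq_self_iff.2 hm]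

theorem nn_normal (m : G) (hm : m ∈ normalizer (V : Set G)) :
    ∀ a ∈ NN V, m * a * m⁻¹ ∈ NN V := by
  have : NN V ≤ (NN V).comap (MulAut.conj m).toMonoidHom := by
    refine sSup_le fun T hT => ?_
    intro t ht
    have h1 : cj m T ≤ NN V := le_nn (hT.1.cj m) (by
      rw [← cj_qq_of_mem hm]; exact cj_mono hT.2)
    exact h1 (conj_mem_cj ht)
  intro a ha
  exact this ha

/-- Commutators in `NN V` lie in `V`. -/
theorem nn_com (h : Hyp V) {a b : G} (ha : a ∈ NN V) (hb : b ∈ NN V) : a * b * a⁻¹ * b⁻¹ ∈ V :=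
  (h.comm_le (v_le_nn h) nn_le_norm (nn_comm h) nn_pg (nn_normal)) (commutator_mem_commutator ha hb)

/-- The centre lemma. -/
theorem center_le (h : Hyp V) {R : Subgroup G} (hVR : V ≤ R) (hRN : R ≤ normalizer (V : Set G))
    (hRn : ∀ m ∈ normalizer (V : Set G), ∀ a ∈ R, m * a * m⁻¹ ∈ R) {z : G} (hz : z ∈ R)
    (hzc : ∀ r ∈ R, z * r = r * z) : z ∈ V := by
  set Z : Subgroup G := R ⊓ centralizer (R : Set G) with hZ
  set A : Subgroup G := Z ⊔ V with hA
  have hi : ∀ a ∈ A, ∀ y ∈ Z, a * y = y * a := by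
    have : A ≤ centralizer (Z : Set G) := by
      refine sup_le ?_ ?_
      · intro a ha
        refine mem_centralizer_iff.2 fun y hy => ?_
        exact (mem_centralizer_iff.1 ha.2) y hy.1 |>.symm ▸ rfl
      · intro a ha
        refine mem_centralizer_iff.2 fun y hy => ?_
        exact ((mem_centralizer_iff.1 hy.2) a (hVR ha)).symm
    intro a ha y hy
    exact ((mem_centralizer_iff.1 (this ha)) y hy).symm
  have hii : ∀ a ∈ A, ∀ v ∈ V, a * v = v * a := by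
    have : A ≤ centralizer (V : Set G) := by
      refine sup_le ?_ ?_
      · intro a ha
        refine mem_centralizer_iff.2 fun v hv => ?_
        exact (mem_centralizer_iff.1 ha.2) v (hVR hv)
      · intro a ha
        refine mem_centralizer_iff.2 fun v hv => ?_
        exact h.comm _ hv _ ha
    intro a ha v hv
    exact ((mem_centralizer_iff.1 (this ha)) v hv).symm
  have hc : ∀ a ∈ A, ∀ b ∈ A, a * b = b * a := by
    intro a ha b hb
    have : A ≤ centralizer ({a} : Set G) := by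
      refine sup_le ?_ ?_
      · intro y hy
        refine mem_centralizer_iff.2 fun w hw => ?_
        rw [Set.mem_singleton_iff] at hw
        subst hw
        exact hi _ ha _ hy
      · intro y hy
        refine mem_centralizer_iff.2 fun w hw => ?_
        rw [Set.mem_singleton_iff] at hw
        subst hw
        exact hii _ ha _ hy
    exact (mem_centralizer_iff.1 (this hb)) a (Set.mem_singleton a)
  have hZm : ∀ m ∈ normalizer (V : Set G), ∀ a ∈ Z, m * a * m⁻¹ ∈ Z := by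
    intro m hm a ha
    refine ⟨hRn m hm a ha.1, mem_centralizer_iff.2 fun r hr => ?_⟩
    have h1 := hRn m⁻¹ (inv_mem hm) r hr
    have h2 := (mem_centralizer_iff.1 ha.2) _ h1
    have h3 := congrArg (fun y => m * y * m⁻¹) h2
    beta_reduce at h3
    convert h3 using 1 <;> group
  have hAm : ∀ m ∈ normalizer (V : Set G), ∀ a ∈ A, m * a * m⁻¹ ∈ A := by
    intro m hm a ha
    have : A ≤ A.comap (MulAut.conj m).toMonoidHom := by
      refine sup_le ?_ ?_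
      · intro y hy
        exact (le_sup_left : Z ≤ A) (hZm m hm y hy)
      · intro y hy
        exact (le_sup_right : V ≤ A) ((mem_normalizer_iff.1 hm y).1 hy)
    exact this ha
  have hEq : A = V := h.mx A le_sup_right (sup_le (inf_le_left.trans hRN) le_normalizer) hc hAm
  rw [← hEq]
  refine (le_sup_left : Z ≤ A) ⟨hz, mem_centralizer_iff.2 fun r hr => ?_⟩
  exact (hzc r hr).symm

theorem nn_center (h : Hyp V) {z : G} (hz : z ∈ NN V) (hzc : ∀ r ∈ NN V, z * r = r * z) : z ∈ V :=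
  center_le h (v_le_nn h) nn_le_norm (nn_normal) hz hzc

/-- General commutation lemma. -/
theorem gen_comm (h : Hyp V) {T : Subgroup G} (hT : CC V T) (hTV : T ≠ V) {t e : G} (ht : t ∈ T)
    (ht1 : t ≠ 1) (he : e * t = t * e) (hc : ∀ t' ∈ T, e * t' * e⁻¹ * t'⁻¹ ∈ V) :
    ∀ t' ∈ T, e * t' = t' * e := by
  intro t' ht'
  have hn := hT.norm h ht ht1 he
  have h1 : e * t' * e⁻¹ * t'⁻¹ ∈ T := T.mul_mem ((mem_normalizer_iff.1 hn t').1 ht') (T.inv_mem ht')
  have h2 : e * t' * e⁻¹ * t'⁻¹ = 1 := by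
    by_contra h3
    exact hTV (hT.eq h (CC.self V) h1 (hc t' ht') h3)
  have h3 : e * t' * e⁻¹ = t' := by
    rw [mul_inv_eq_one] at h2
    exact h2
  rw [mul_inv_eq_iff_eq_mul] at h3
  exact h3

/-- The configuration: `U`, `X` conjugates of `V` in `O₂(N(V))`, different from `V`, not commuting. -/
structure Pl (V U X : Subgroup G) : Prop where
  h : Hyp V
  cu : CC V U
  cx : CC V X
  uq : U ≤ QQ V
  xq : X ≤ QQ V
  un : U ≠ V
  nc : ¬ ∀ a ∈ U, ∀ b ∈ X, a * b = b * a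

namespace Pl

variable {U X : Subgroup G} (P : Pl V U X)
include P

theorem un_nn : U ≤ NN V := le_nn P.cu P.uq
theorem xn_nn : X ≤ NN V := le_nn P.cx P.xq

theorem xn : X ≠ V := by
  rintro rfl
  apply P.nc
  intro a ha b hb
  exact comm_of_qq P.h P.cu P.uq a ha b hb

theorem v_ne_bot : ∃ v ∈ V, v ≠ 1 := by
  by_contra hc
  push Not at hc
  apply P.nc
  have hU : ∀ a ∈ U, a = 1 := by
    intro a ha
    have hU1 : Nat.card U = Nat.card V := P.cu.card
    have hV1 : Nat.card V = 1 := by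
      have : V = ⊥ := (Subgroup.eq_bot_iff_forall _).2 hc
      rw [this]; simp
    have hb : U = ⊥ := by
      rw [← Subgroup.card_eq_one]
      rw [hU1, hV1]
    rw [hb] at ha
    exact ha
  intro a ha b hb
  rw [hU a ha]; simp

theorem exists_ne {T : Subgroup G} (hT : CC V T) : ∃ t ∈ T, t ≠ 1 := by
  obtain ⟨v, hv, hv1⟩ := P.v_ne_bot
  obtain ⟨x, rfl⟩ := hT
  exact ⟨x * v * x⁻¹, conj_mem_cj hv, by simpa using hv1⟩

/-- Non-commuting conjugates in `NN V` are nonsingular. -/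
theorem nonsing {u x : G} (hu : u ∈ U) (hu1 : u ≠ 1) (hx : x ∈ X) (hx1 : x ≠ 1) : u * x ≠ x * u := by
  intro he
  apply P.nc
  have h1 : ∀ x' ∈ X, u * x' = x' * u := gen_comm P.h P.cx P.xn hx hx1 he fun t' ht' =>
    nn_com P.h (P.un_nn hu) (P.xn_nn ht')
  intro a ha b hb
  by_cases hb1 : b = 1
  · subst hb1; simp
  have h2 : ∀ a' ∈ U, b * a' = a' * b := gen_comm P.h P.cu P.un hu hu1 (h1 b hb).symm fun t' ht' =>
    nn_com P.h (P.xn_nn hb) (P.un_nn ht')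
  exact (h2 a ha).symm

/-- For `u ≠ 1` in `U`, `x ↦ [x,u]` is onto `V`. -/
theorem surj_x {u : G} (hu : u ∈ U) (hu1 : u ≠ 1) (v : G) (hv : v ∈ V) :
    ∃ x ∈ X, x * u * x⁻¹ * u⁻¹ = v := by
  let f : X → V := fun x => ⟨x.1 * u * x.1⁻¹ * u⁻¹, nn_com P.h (P.xn_nn x.2) (P.un_nn hu)⟩
  have hf : Function.Injective f := by
    intro x y hxy
    have h1 : x.1 * u * x.1⁻¹ * u⁻¹ = y.1 * u * y.1⁻¹ * u⁻¹ := congrArg Subtype.val hxy
    have h2 : x.1 * u * x.1⁻¹ = y.1 * u * y.1⁻¹ := mul_right_cancel h1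
    have h3 : u * (y.1⁻¹ * x.1) = (y.1⁻¹ * x.1) * u := by
      have h4 := congrArg (fun z => y.1⁻¹ * z * x.1) h2
      beta_reduce at h4
      have e1 : y.1⁻¹ * (x.1 * u * x.1⁻¹) * x.1 = (y.1⁻¹ * x.1) * u := by group
      have e2 : y.1⁻¹ * (y.1 * u * y.1⁻¹) * x.1 = u * (y.1⁻¹ * x.1) := by group
      rw [e1, e2] at h4
      exact h4.symm
    by_contra hne
    have h5 : y.1⁻¹ * x.1 ≠ 1 := by
      intro h6
      apply hne
      apply Subtype.ext
      rw [inv_mul_eq_one] at h6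
      exact h6.symm
    exact P.nonsing hu hu1 (X.mul_mem (X.inv_mem y.2) x.2) h5 h3
  have hb := hf.bijective_of_nat_card_le (by rw [P.cx.card])
  obtain ⟨x, hx⟩ := hb.2 ⟨v, hv⟩
  exact ⟨x.1, x.2, congrArg Subtype.val hx⟩

/-- For `x ≠ 1` in `X`, `u ↦ [x,u]` is onto `V`. -/
theorem surj_u {x : G} (hx : x ∈ X) (hx1 : x ≠ 1) (v : G) (hv : v ∈ V) :
    ∃ u ∈ U, x * u * x⁻¹ * u⁻¹ = v := by
  let f : U → V := fun u => ⟨x * u.1 * x⁻¹ * u.1⁻¹, nn_com P.h (P.xn_nn hx) (P.un_nn u.2)⟩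
  have hf : Function.Injective f := by
    intro a b hab
    have h1 : x * a.1 * x⁻¹ * a.1⁻¹ = x * b.1 * x⁻¹ * b.1⁻¹ := congrArg Subtype.val hab
    by_contra hne
    have h5 : b.1⁻¹ * a.1 ≠ 1 := by
      intro h6
      apply hne
      apply Subtype.ext
      rw [inv_mul_eq_one] at h6
      exact h6.symm
    apply P.nonsing (U.mul_mem (U.inv_mem b.2) a.2) h5 hx hx1
    -- `x` commutes with `b⁻¹ a`
    have hab' : a.1 * b.1 = b.1 * a.1 := P.cu.comm P.h _ a.2 _ b.2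
    have e0 : x * a.1 * x⁻¹ = x * b.1 * x⁻¹ * b.1⁻¹ * a.1 := by
      rw [← h1]; group
    have e1 : x * (b.1⁻¹ * a.1) * x⁻¹ = b.1⁻¹ * a.1 := by
      have e2 : x * (b.1⁻¹ * a.1) * x⁻¹ = (x * b.1⁻¹ * x⁻¹) * (x * a.1 * x⁻¹) := by group
      rw [e2, e0]
      group
    rw [mul_inv_eq_iff_eq_mul] at e1
    exact e1.symm
  have hb := hf.bijective_of_nat_card_le (by rw [P.cu.card])
  obtain ⟨u, hu⟩ := hb.2 ⟨v, hv⟩
  exact ⟨u.1, u.2, congrArg Subtype.val hu⟩

/-- Decomposition of `NN V`. -/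
theorem decomp {n : G} (hn : n ∈ NN V) :
    ∃ x ∈ X, ∃ y ∈ NN V, (∀ a ∈ U, y * a = a * y) ∧ n = x * y := by
  obtain ⟨u, hu, hu1⟩ := P.exists_ne P.cu
  obtain ⟨x, hx, hxe⟩ := P.surj_x hu hu1 _ (nn_com P.h hn (P.un_nn hu))
  have h2 : x * u * x⁻¹ = n * u * n⁻¹ := mul_right_cancel hxe
  have hy : x⁻¹ * n ∈ NN V := (NN V).mul_mem ((NN V).inv_mem (P.xn_nn hx)) hn
  have h3 : (x⁻¹ * n) * u = u * (x⁻¹ * n) := by
    have h4 := congrArg (fun z => x⁻¹ * z * n) h2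
    beta_reduce at h4
    have e1 : x⁻¹ * (x * u * x⁻¹) * n = u * (x⁻¹ * n) := by group
    have e2 : x⁻¹ * (n * u * n⁻¹) * n = (x⁻¹ * n) * u := by group
    rw [e1, e2] at h4
    exact h4.symm
  refine ⟨x, hx, x⁻¹ * n, hy, ?_, by group⟩
  exact gen_comm P.h P.cu P.un hu hu1 h3 fun t' ht' => nn_com P.h hy (P.un_nn ht')

/-- The double centralizer: `C_N(C_N(U)) = V U`. -/
theorem double {d : G} (hd : d ∈ NN V)
    (hc : ∀ y ∈ NN V, (∀ a ∈ U, y * a = a * y) → d * y = y * d) :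
    ∃ u ∈ U, ∃ v ∈ V, d = u * v := by
  obtain ⟨x, hx, hx1⟩ := P.exists_ne P.cx
  -- choose `u` with `u x u⁻¹ = d x d⁻¹`
  have hv : d * x * d⁻¹ * x⁻¹ ∈ V := nn_com P.h hd (P.xn_nn hx)
  obtain ⟨u, hu, hue⟩ := P.surj_u hx hx1 _ (V.inv_mem hv)
  have h1 : u * x * u⁻¹ * x⁻¹ = d * x * d⁻¹ * x⁻¹ := by
    have := congrArg (·⁻¹) hue
    simp only [inv_inv] at this
    rw [← this]
    group
  have h2 : u * x * u⁻¹ = d * x * d⁻¹ := mul_right_cancel h1
  have he : u⁻¹ * d ∈ NN V := (NN V).mul_mem ((NN V).inv_mem (P.un_nn hu)) hd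
  have h3 : (u⁻¹ * d) * x = x * (u⁻¹ * d) := by
    have h4 := congrArg (fun z => u⁻¹ * z * d) h2
    beta_reduce at h4
    have e1 : u⁻¹ * (u * x * u⁻¹) * d = x * (u⁻¹ * d) := by group
    have e2 : u⁻¹ * (d * x * d⁻¹) * d = (u⁻¹ * d) * x := by group
    rw [e1, e2] at h4
    exact h4.symm
  have hX : ∀ x' ∈ X, (u⁻¹ * d) * x' = x' * (u⁻¹ * d) :=
    gen_comm P.h P.cx P.xn hx hx1 h3 fun t' ht' => nn_com P.h he (P.xn_nn ht')
  refine ⟨u, hu, u⁻¹ * d, nn_center P.h he ?_, by group⟩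
  intro r hr
  obtain ⟨x', hx', y, hy, hyU, rfl⟩ := P.decomp hr
  have h5 : u⁻¹ * y = y * u⁻¹ := by
    have := hyU u⁻¹ (U.inv_mem hu)
    exact this.symm
  have h6 : (u⁻¹ * d) * y = y * (u⁻¹ * d) := by
    rw [mul_assoc, hc y hy hyU, ← mul_assoc, h5, mul_assoc]
  rw [← mul_assoc, hX x' hx', mul_assoc, h6, mul_assoc]

/-- A `u * v` with `u ≠ 1` lies in a conjugate of `U` by an element of `X`. -/
theorem exists_conj {u v : G} (hu : u ∈ U) (hu1 : u ≠ 1) (hv : v ∈ V) :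
    ∃ x ∈ X, x * u * x⁻¹ = u * v := by
  obtain ⟨x, hx, hxe⟩ := P.surj_x hu hu1 v hv
  refine ⟨x, hx, ?_⟩
  rw [mul_inv_eq_iff_eq_mul] at hxe
  rw [hxe]
  have := comm_of_qq P.h P.cu P.uq u hu v hv
  rw [this]

end Pl

end Cfsg.Agent.Lib.TISub.Plane
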