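import Mathlib
import Cfsg.Agent.Lib.TISub.Plane

/-! Symmetry of the relation `U ≤ O₂(N(V))` on conjugates of a TI-subgroup `V`. -/

set_option autoImplicit false

namespace Cfsg.Agent.Lib.TISub.Sym

open Subgroup Cfsg Cfsg.Agent.Lib.PGroup.WeaklyClosed Cfsg.Agent.Lib.TISub.Basic
  Cfsg.Agent.Lib.TISub.Plane
open scoped commutatorElement

variable {G : Type*} [Group G] [Finite G] {V : Subgroup G}

theorem sup_form {V U : Subgroup G} (hc : ∀ u ∈ U, ∀ v ∈ V, u * v = v * u) {w : G}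
    (hw : w ∈ V ⊔ U) : ∃ u ∈ U, ∃ v ∈ V, w = u * v := by
  let K : Subgroup G :=
   { carrier := {w | ∃ u ∈ U, ∃ v ∈ V, w = u * v}
     one_mem' := ⟨1, U.one_mem, 1, V.one_mem, by simp⟩
     mul_mem' := by
       rintro _ _ ⟨a, ha, b, hb, rfl⟩ ⟨c, hc', d, hd, rfl⟩
       refine ⟨a * c, U.mul_mem ha hc', b * d, V.mul_mem hb hd, ?_⟩
       have := hc c hc' b hb
       calc a * b * (c * d) = a * (b * c) * d := by group
         _ = a * (c * b) * d := by rw [this]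
         _ = a * c * (b * d) := by group
     inv_mem' := by
       rintro _ ⟨a, ha, b, hb, rfl⟩
       refine ⟨a⁻¹, U.inv_mem ha, b⁻¹, V.inv_mem hb, ?_⟩
       have := hc a⁻¹ (U.inv_mem ha) b⁻¹ (V.inv_mem hb)
       rw [mul_inv_rev, this] }
  have : V ⊔ U ≤ K := sup_le (fun v hv => ⟨1, U.one_mem, v, hv, by simp⟩)
    (fun u hu => ⟨u, hu, 1, V.one_mem, by simp⟩)
  exact this hw

theorem card_lt_of_lt {A B : Subgroup G} (h : A < B) : Nat.card A < Nat.card B := by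
  apply lt_of_le_of_ne (Subgroup.card_le_of_le h.le)
  intro he
  exact h.ne (Subgroup.eq_of_le_of_card_ge h.le he.ge)

theorem sylow_step (M' : Subgroup G) (g : G) {T S₁ : Subgroup G} (hT : IsPGroup 2 T)
    (hS₁ : IsPGroup 2 S₁) (hTS : T < S₁) (hTM : T ≤ cj g M') (hS₁M : S₁ ≤ M') :
    ∃ S₂ : Subgroup G, IsPGroup 2 S₂ ∧ T < S₂ ∧ S₂ ≤ cj g M' := by
  set K := cj g M' with hK
  obtain ⟨S, hS⟩ := (hT.comap_subtype (K := K)).exists_le_sylow
  have hS₁' : IsPGroup 2 (cj g S₁) := isPGroup_cj hS₁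
  obtain ⟨S', hS'⟩ := (hS₁'.comap_subtype (K := K)).exists_le_sylow
  have hc : Nat.card S = Nat.card S' := by
    rw [S.card_eq_multiplicity, S'.card_eq_multiplicity]
  refine ⟨(S : Subgroup ↥K).map K.subtype, S.2.map _, ?_, Subgroup.map_subtype_le _⟩
  have hle : T ≤ (S : Subgroup ↥K).map K.subtype := by
    intro t ht
    exact ⟨⟨t, hTM ht⟩, hS (Subgroup.mem_comap.2 ht), rfl⟩
  refine lt_of_le_of_ne hle ?_
  intro he
  have h1 : Nat.card ((S : Subgroup ↥K).map K.subtype) = Nat.card S :=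
    Nat.card_congr (Subgroup.equivMapOfInjective _ _ K.subtype_injective).toEquiv.symm
  have h2 : Nat.card ((cj g S₁).comap K.subtype) = Nat.card (cj g S₁) := by
    have hle2 : cj g S₁ ≤ K := cj_mono hS₁M
    have : (cj g S₁).comap K.subtype = (cj g S₁).subgroupOf K := rfl
    rw [this]
    exact Nat.card_congr (Subgroup.subgroupOfEquivOfLe hle2).toEquiv
  have h3 : Nat.card ((cj g S₁).comap K.subtype) ≤ Nat.card S' := Subgroup.card_le_of_le hS'
  have h4 := card_lt_of_lt hTS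
  rw [card_cj] at h2
  rw [← he] at h1
  omega

theorem exists_normalizing {T S₂ : Subgroup G} (hS₂ : IsPGroup 2 S₂) (hTS : T < S₂) :
    ∃ t ∈ S₂, t ∉ T ∧ cj t T = T := by
  have hnil : Group.IsNilpotent S₂ := hS₂.isNilpotent
  have hnc := Group.normalizerCondition_of_isNilpotent (G := S₂)
  have hlt : T.subgroupOf S₂ < ⊤ := by
    rw [lt_top_iff_ne_top]
    intro he
    have : S₂ ≤ T := Subgroup.subgroupOf_eq_top.1 he
    exact absurd (le_antisymm hTS.le this) hTS.ne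
  have h1 := hnc _ hlt
  obtain ⟨x, hx, hxT⟩ := SetLike.exists_of_lt h1
  refine ⟨x.1, x.2, fun h => hxT (mem_subgroupOf.2 h), ?_⟩
  apply Subgroup.eq_of_le_of_card_ge _ (by rw [card_cj])
  rintro _ ⟨τ, hτ, rfl⟩
  have hτ' : (⟨τ, hTS.le hτ⟩ : ↥S₂) ∈ T.subgroupOf S₂ := mem_subgroupOf.2 hτ
  have h2 := (mem_normalizer_iff.1 hx _).1 hτ'
  exact mem_subgroupOf.1 h2

theorem mem_norm_of {R : Subgroup G} {m : G} (h1 : ∀ a ∈ R, m * a * m⁻¹ ∈ R)
    (h2 : ∀ a ∈ R, m⁻¹ * a * m ∈ R) : m ∈ normalizer (R : Set G) := by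
  refine mem_normalizer_iff.2 fun a => ⟨h1 a, fun h => ?_⟩
  have := h2 _ h
  convert this using 1
  group

theorem norm_of_comm_all {R : Subgroup G} {m : G} (h1 : ∀ a ∈ R, m * a = a * m) :
    m ∈ normalizer (R : Set G) := by
  refine mem_norm_of (fun a ha => ?_) (fun a ha => ?_)
  · rw [h1 a ha]; simpa using ha
  · have e : m⁻¹ * a * m = a := by
      rw [mul_assoc, ← h1 a ha]; group
    rw [e]; exact ha

/-- `O₂(N(V)) ∩ C(NN V)`. -/
def Q0 (V : Subgroup G) : Subgroup G := QQ V ⊓ centralizer (NN V : Set G)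

theorem v_le_q0 (h : Hyp V) : V ≤ Q0 V := by
  intro v hv
  refine ⟨v_le_qq h hv, mem_centralizer_iff.2 fun n hn => ?_⟩
  exact nn_comm h n hn v hv

theorem q0_le_norm : Q0 V ≤ normalizer (V : Set G) := inf_le_left.trans (qq_le V)

theorem q0_normal (m : G) (hm : m ∈ normalizer (V : Set G)) :
    ∀ a ∈ Q0 V, m * a * m⁻¹ ∈ Q0 V := by
  intro a ha
  refine ⟨qq_normal hm ha.1, mem_centralizer_iff.2 fun n hn => ?_⟩
  have h1 := nn_normal m⁻¹ (inv_mem hm) n hn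
  have h2 := (mem_centralizer_iff.1 ha.2) _ h1
  have h3 := congrArg (fun y => m * y * m⁻¹) h2
  beta_reduce at h3
  convert h3 using 1 <;> group

theorem Z1_le (h : Hyp V) {z : G} (hzM : z ∈ normalizer (V : Set G))
    (hz1 : ∀ n ∈ NN V, z * n = n * z) (hz2 : ∀ q ∈ Q0 V, z * q = q * z) : z ∈ V := by
  -- the subgroup of such elements
  let Z1 : Subgroup G := normalizer (V : Set G) ⊓ centralizer (NN V : Set G) ⊓ centralizer (Q0 V : Set G)
  have hZn : ∀ m ∈ normalizer (V : Set G), ∀ a ∈ Z1, m * a * m⁻¹ ∈ Z1 := by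
    intro m hm a ha
    refine ⟨⟨Subgroup.mul_mem _ (Subgroup.mul_mem _ hm ha.1.1) (Subgroup.inv_mem _ hm), mem_centralizer_iff.2 fun n hn => ?_⟩,
      mem_centralizer_iff.2 fun n hn => ?_⟩
    · have h1 := nn_normal m⁻¹ (inv_mem hm) n hn
      have h2 := (mem_centralizer_iff.1 ha.1.2) _ h1
      have h3 := congrArg (fun y => m * y * m⁻¹) h2
      beta_reduce at h3
      convert h3 using 1 <;> group
    · have h1 := q0_normal m⁻¹ (inv_mem hm) n hn
      have h2 := (mem_centralizer_iff.1 ha.2) _ h1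
      have h3 := congrArg (fun y => m * y * m⁻¹) h2
      beta_reduce at h3
      convert h3 using 1 <;> group
  have hZQ : ∀ a ∈ Z1, ∀ r ∈ QQ V, a * r * a⁻¹ = r * (r⁻¹ * (a * r * a⁻¹)) ∧
      r⁻¹ * (a * r * a⁻¹) ∈ V := by
    intro a ha r hr
    refine ⟨by group, ?_⟩
    have h1 : r⁻¹ * (a * r * a⁻¹) = (r⁻¹ * a * r⁻¹⁻¹) * a⁻¹ := by group
    have h2 : r⁻¹ * (a * r * a⁻¹) ∈ Z1 := by
      rw [h1]
      exact Z1.mul_mem (hZn _ (inv_mem (qq_le V hr)) a ha) (Z1.inv_mem ha)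
    have h3 : r⁻¹ * (a * r * a⁻¹) ∈ QQ V :=
      (QQ V).mul_mem ((QQ V).inv_mem hr) (qq_normal ha.1.1 hr)
    have h4 : r⁻¹ * (a * r * a⁻¹) ∈ Q0 V := ⟨h3, h2.1.2⟩
    exact center_le h (v_le_q0 h) q0_le_norm q0_normal h4 fun q hq =>
      ((mem_centralizer_iff.1 h2.2) q hq).symm
  have hsq : ∀ a ∈ Z1, a * a ∈ QQ V := by
    intro a ha
    apply h.fs _ (mul_mem ha.1.1 ha.1.1)
    intro r hr
    obtain ⟨h1, h2⟩ := hZQ a ha r hr
    set ε := r⁻¹ * (a * r * a⁻¹) with hε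
    have h3 : a * ε * a⁻¹ = ε := by
      have := (mem_centralizer_iff.1 ha.1.2) ε (v_le_nn h h2)
      rw [← this]; group
    have h4 : ε * ε = 1 := h.sq ε h2
    have h5 : a * a * r * (a * a)⁻¹ = r := by
      have e : a * a * r * (a * a)⁻¹ = a * (a * r * a⁻¹) * a⁻¹ := by group
      rw [e, h1]
      have e2 : a * (r * (r⁻¹ * (a * r * a⁻¹))) * a⁻¹ = (a * r * a⁻¹) * (a * ε * a⁻¹) := by
        rw [hε]; group
      have e3 : r * (r⁻¹ * (a * r * a⁻¹)) = a * r * a⁻¹ := by group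
      rw [h3] at e2
      rw [e2, ← e3, ← hε, mul_assoc, h4, mul_one]
    rw [mul_inv_eq_iff_eq_mul] at h5
    exact h5
  have hZp : IsPGroup 2 Z1 := by
    rintro ⟨a, ha⟩
    obtain ⟨k, hk⟩ := qq_pgroup V ⟨a * a, hsq a ha⟩
    refine ⟨k + 1, Subtype.ext ?_⟩
    have h1 : (a * a) ^ 2 ^ k = 1 := by
      simpa using congrArg Subtype.val hk
    simp only [SubmonoidClass.mk_pow, OneMemClass.coe_one]
    rw [pow_succ, mul_comm, pow_mul, pow_two]
    exact h1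
  have hZQ' : Z1 ≤ QQ V := le_qq (fun a ha => ha.1.1) hZp hZn
  have hzZ : z ∈ Z1 := ⟨⟨hzM, mem_centralizer_iff.2 fun n hn => (hz1 n hn).symm⟩,
    mem_centralizer_iff.2 fun q hq => (hz2 q hq).symm⟩
  exact center_le h (v_le_q0 h) q0_le_norm q0_normal ⟨hZQ' hzZ, hzZ.1.2⟩ hz2

namespace Pl

variable {U X : Subgroup G} (P : Pl V U X)
include P

theorem not_norm {x : G} (hx : x ∈ X) (hx1 : x ≠ 1) : x ∉ normalizer (U : Set G) := by
  intro hn
  obtain ⟨u, hu, hu1⟩ := P.exists_ne P.cu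
  have h1 : x * u * x⁻¹ * u⁻¹ ∈ U := U.mul_mem ((mem_normalizer_iff.1 hn u).1 hu) (U.inv_mem hu)
  have h2 : x * u * x⁻¹ * u⁻¹ ∈ V := nn_com P.h (P.xn_nn hx) (P.un_nn hu)
  have h3 : x * u * x⁻¹ * u⁻¹ = 1 := by
    by_contra h4
    exact P.un (P.cu.eq P.h (CC.self V) h1 h2 h4)
  apply P.nonsing hu hu1 hx hx1
  rw [mul_inv_eq_one, mul_inv_eq_iff_eq_mul] at h3
  exact h3.symm

theorem cjX_le {x : G} (hx : x ∈ X) : cj x U ≤ V ⊔ U := by
  rintro _ ⟨u, hu, rfl⟩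
  have e : (MulAut.conj x).toMonoidHom u = (x * u * x⁻¹ * u⁻¹) * u := by
    simp
  rw [e]
  exact (V ⊔ U).mul_mem ((le_sup_left : V ≤ V ⊔ U) (nn_com P.h (P.xn_nn hx) (P.un_nn hu)))
    ((le_sup_right : U ≤ V ⊔ U) hu)

theorem cjX_qq {x : G} (hx : x ∈ X) : cj x U ≤ QQ V := by
  rw [← cj_eq_of_mem (P.xq hx)]
  exact cj_mono P.uq

/-- **Symmetry**: `U ≤ O₂(N(V))` implies `V ≤ O₂(N(U))`. -/
theorem sym : V ≤ QQ U := by
  classical
  have h := P.h
  obtain ⟨g, hg⟩ := P.cu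
  have hUN : ∀ y, y ∈ normalizer (U : Set G) ↔ y ∈ cj g (normalizer (V : Set G)) := by
    intro y
    rw [hg, mem_norm_cj, mem_cj]
  have hcUV : ∀ u ∈ U, ∀ v ∈ V, u * v = v * u := comm_of_qq h P.cu P.uq
  set B : Subgroup G := normalizer (V : Set G) ⊓ normalizer (U : Set G) with hB
  obtain ⟨T, hT⟩ := (Set.toFinite {T : Subgroup G | T ≤ B ∧ IsPGroup 2 T}).exists_maximal
    ⟨⊥, bot_le, IsPGroup.of_bot⟩
  have hTB : T ≤ B := hT.prop.1
  have hTp : IsPGroup 2 T := hT.prop.2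
  have hle : ∀ R : Subgroup G, R ≤ B → IsPGroup 2 R → (∀ m ∈ B, ∀ a ∈ R, m * a * m⁻¹ ∈ R) → R ≤ T := by
    intro R hRB hRp hRn
    have h1 : T ≤ normalizer (R : Set G) := fun τ hτ =>
      mem_norm_of (hRn τ (hTB hτ)) fun a ha => by
        have := hRn τ⁻¹ (inv_mem (hTB hτ)) a ha
        simpa using this
    have h2 := hTp.to_sup_of_normal_right' hRp h1
    have h3 : T ⊔ R ≤ T := hT.2 ⟨sup_le hTB hRB, h2⟩ le_sup_left
    exact le_sup_right.trans h3
  have hVT : V ≤ T := by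
    apply hle V _ h.pg
    · intro m hm a ha
      exact (mem_normalizer_iff.1 hm.1 a).1 ha
    · intro v hv
      refine ⟨le_normalizer hv, norm_of_comm_all fun u hu => (hcUV u hu v hv).symm⟩
  have hUT : U ≤ T := by
    apply hle U _ (P.cu.pg h)
    · intro m hm a ha
      exact (mem_normalizer_iff.1 hm.2 a).1 ha
    · intro u hu
      exact ⟨qq_le V (P.uq hu), le_normalizer hu⟩
  have hcentU : ∀ m ∈ normalizer (U : Set G), ∀ a ∈ centralizer (U : Set G),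
      m * a * m⁻¹ ∈ centralizer (U : Set G) := by
    intro m hm a ha
    refine mem_centralizer_iff.2 fun u hu => ?_
    have h1 : m⁻¹ * u * m ∈ U := by
      have := (mem_normalizer_iff.1 (inv_mem hm) u).1 hu
      simpa using this
    have h2 := (mem_centralizer_iff.1 ha) _ h1
    have h3 := congrArg (fun y => m * y * m⁻¹) h2
    beta_reduce at h3
    convert h3 using 1 <;> group
  -- `N₁ = C_N(U)` and `Q₀` lie in `T`
  have hN1T : ∀ y ∈ NN V, (∀ a ∈ U, y * a = a * y) → y ∈ T := by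
    have hl : NN V ⊓ centralizer (U : Set G) ≤ T := by
      apply hle _ _ (nn_pg.to_le inf_le_left)
      · intro m hm a ha
        exact ⟨nn_normal m hm.1 a ha.1, hcentU m hm.2 a ha.2⟩
      · intro y hy
        exact ⟨nn_le_norm hy.1, norm_of_comm_all fun a ha =>
          ((mem_centralizer_iff.1 hy.2) a ha).symm⟩
    intro y hy hyU
    exact hl ⟨hy, mem_centralizer_iff.2 fun a ha => (hyU a ha).symm⟩
  have hQ0T : Q0 V ≤ T := by
    apply hle _ _ ((qq_pgroup V).to_le inf_le_left)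
    · intro m hm a ha
      exact q0_normal m hm.1 a ha
    · intro q hq
      refine ⟨q0_le_norm hq, norm_of_comm_all fun a ha => ?_⟩
      exact ((mem_centralizer_iff.1 hq.2) a (P.un_nn ha)).symm
  -- the element `t`
  obtain ⟨x0, hx0, hx01⟩ := P.exists_ne P.cx
  have hx0T : x0 ∉ T := fun hm => not_norm P hx0 hx01 (hTB hm).2
  have hS1p : IsPGroup 2 ↥(T ⊔ QQ V) := hTp.to_sup_of_normal_right' (qq_pgroup V)
    (fun τ hτ => mem_norm_of (fun a ha => qq_normal (hTB hτ).1 ha) fun a ha => by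
      have := qq_normal (inv_mem (hTB hτ).1) ha
      simpa using this)
  have hTS1 : T < T ⊔ QQ V := lt_of_le_of_ne le_sup_left fun he =>
    hx0T (he ▸ (le_sup_right : QQ V ≤ T ⊔ QQ V) (P.xq hx0))
  obtain ⟨S₂, hS₂p, hTS₂, hS₂N⟩ := sylow_step (normalizer (V : Set G)) g hTp hS1p hTS1
    (fun τ hτ => (hUN τ).1 (hTB hτ).2) (sup_le (fun τ hτ => (hTB hτ).1) (qq_le V))
  obtain ⟨t, htS, htT, htc⟩ := exists_normalizing hS₂p hTS₂
  have htU : t ∈ normalizer (U : Set G) := (hUN t).2 (hS₂N htS)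
  have htV : t ∉ normalizer (V : Set G) := by
    intro htV
    have hle3 : T ⊔ zpowers t ≤ S₂ := sup_le hTS₂.le (by
      rw [zpowers_le]; exact htS)
    have hle4 : T ⊔ zpowers t ≤ B := sup_le hTB (by
      rw [zpowers_le]; exact ⟨htV, htU⟩)
    have := hT.2 ⟨hle4, hS₂p.to_le hle3⟩ le_sup_left
    exact htT (this ((le_sup_right : zpowers t ≤ T ⊔ zpowers t) (mem_zpowers t)))
  set V' := cj t V with hV'
  have hV'ne : V' ≠ V := fun he => htV (cj_eq_self_iff.1 he)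
  have hV'T : V' ≤ T := by
    rw [← htc]; exact cj_mono hVT
  have hV'C : CC V V' := ⟨t, rfl⟩
  have htU' : cj t U = U := cj_eq_self_iff.2 htU
  -- the element `a`
  obtain ⟨a, haV', ha1, haT⟩ : ∃ a ∈ V', a ≠ 1 ∧ ∀ τ ∈ T, a * τ = τ * a := by
    have hn : (V'.subgroupOf T).Normal := by
      refine ⟨fun n hn τ => mem_subgroupOf.2 ?_⟩
      have h1 : n.1 ∈ V' := mem_subgroupOf.1 hn
      refine mem_cj.2 ?_
      have h2 := mem_cj.1 h1
      have h3 : t⁻¹ * τ.1 * t ∈ T := by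
        have := conj_mem_cj (g := t⁻¹) τ.2
        rw [show cj t⁻¹ T = T by rw [cj_eq_self_iff]; exact inv_mem (cj_eq_self_iff.1 htc)] at this
        simpa using this
      have h4 := (mem_normalizer_iff.1 (hTB h3).1 _).1 h2
      convert h4 using 1
      simp only [Subgroup.coe_mul, Subgroup.coe_inv]
      group
    have hne : V'.subgroupOf T ≠ ⊥ := by
      obtain ⟨w, hw, hw1⟩ := P.exists_ne hV'C
      intro hb
      have : (⟨w, hV'T hw⟩ : ↥T) ∈ V'.subgroupOf T := mem_subgroupOf.2 hw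
      rw [hb, mem_bot] at this
      exact hw1 (congrArg Subtype.val this)
    have hTp' : IsPGroup 2 ↥T := hTp
    obtain ⟨⟨z, hz1, hz2⟩, hz⟩ :=
      Subgroup.ne_bot_iff_exists_ne_one.1 (Cfsg.Agent.Lib.PGroup.Basic.inf_center_ne_bot hTp' hne)
    refine ⟨z.1, mem_subgroupOf.1 hz1, fun h0 => hz (Subtype.ext (Subtype.ext h0)), fun τ hτ => ?_⟩
    have := (Subgroup.mem_center_iff.1 hz2) ⟨τ, hτ⟩
    exact (congrArg Subtype.val this).symm
  have haM : a ∈ normalizer (V : Set G) := (hTB (hV'T haV')).1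
  have haV : ∀ v ∈ V, a * v = v * a := fun v hv => haT v (hVT hv)
  have haU : ∀ u ∈ U, a * u = u * a := fun u hu => haT u (hUT hu)
  -- action of `a` on `X`
  have hW : ∀ x ∈ X, x⁻¹ * (a * x * a⁻¹) ∈ V := by
    intro x hx
    by_cases hx1 : x = 1
    · subst hx1; simp [V.one_mem]
    have hxN := P.xn_nn hx
    set w := x⁻¹ * (a * x * a⁻¹) with hw
    have hwN : w ∈ NN V := (NN V).mul_mem ((NN V).inv_mem hxN) (nn_normal a haM x hxN)
    have hax : a * x * a⁻¹ = x * w := by rw [hw]; group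
    have hwc : ∀ y ∈ NN V, (∀ b ∈ U, y * b = b * y) → w * y = y * w := by
      intro y hy hyU
      have hay : a * y = y * a := haT y (hN1T y hy hyU)
      have hz : x * y * x⁻¹ * y⁻¹ ∈ V := nn_com h hxN hy
      have h1 := haV _ hz
      have h2 : a * (x * y * x⁻¹ * y⁻¹) * a⁻¹ = x * y * x⁻¹ * y⁻¹ := by
        rw [h1]; group
      have ha1' : a * y * a⁻¹ = y := by rw [hay]; group
      have h3 : a * (x * y * x⁻¹ * y⁻¹) * a⁻¹
          = (a * x * a⁻¹) * (a * y * a⁻¹) * (a * x * a⁻¹)⁻¹ * (a * y * a⁻¹)⁻¹ := by group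
      rw [h3, ha1', hax] at h2
      have h4 : x * w * y * (x * w)⁻¹ = x * y * x⁻¹ := mul_right_cancel h2
      have h5 : w * y * w⁻¹ = y := by
        have h6 := congrArg (fun z => x⁻¹ * z * x) h4
        beta_reduce at h6
        convert h6 using 1 <;> group
      rw [mul_inv_eq_iff_eq_mul] at h5
      exact h5
    obtain ⟨u₁, hu₁, v₁, hv₁, hwe⟩ := P.double hwN hwc
    have hx2 : x * x = 1 := P.cx.sq h x hx
    have hx'2 : (a * x * a⁻¹) * (a * x * a⁻¹) = 1 := by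
      have : (a * x * a⁻¹) * (a * x * a⁻¹) = a * (x * x) * a⁻¹ := by group
      rw [this, hx2]; group
    have hw2 : w * w = 1 := by
      rw [hwe]
      have e1 : u₁ * v₁ * (u₁ * v₁) = u₁ * (v₁ * u₁) * v₁ := by group
      rw [e1, ← hcUV u₁ hu₁ v₁ hv₁]
      have e2 : u₁ * (u₁ * v₁) * v₁ = (u₁ * u₁) * (v₁ * v₁) := by group
      rw [e2, P.cu.sq h u₁ hu₁, h.sq v₁ hv₁]; simp
    have hxw : x * w = w * x := by
      rw [hax] at hx'2
      have e1 : x * w * (x * w) = 1 := hx'2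
      have e2 : x * w = (x * w)⁻¹ := eq_inv_of_mul_eq_one_left e1
      rw [e2, mul_inv_rev, inv_eq_of_mul_eq_one_left hw2, inv_eq_of_mul_eq_one_left hx2]
    have hxv := nn_comm h x hxN v₁ hv₁
    have hxu : u₁ * x = x * u₁ := by
      rw [hwe] at hxw
      have e1 : x * (u₁ * v₁) = (x * u₁) * v₁ := by group
      have e2 : u₁ * v₁ * x = u₁ * x * v₁ := by
        rw [mul_assoc, ← hxv, mul_assoc]
      rw [e1, e2] at hxw
      exact (mul_right_cancel hxw).symm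
    have hu1 : u₁ = 1 := by
      by_contra hne
      exact P.nonsing hu₁ hne hx hx1 hxu
    rw [hwe, hu1, one_mul]
    exact hv₁
  -- choose `u₀`
  have hc0 : x0⁻¹ * (a * x0 * a⁻¹) ∈ V := hW x0 hx0
  obtain ⟨u₀, hu₀, hu₀e⟩ := P.surj_u (X.inv_mem hx0) (inv_ne_one.2 hx01) _ (V.inv_mem hc0)
  set c₀ := x0⁻¹ * (a * x0 * a⁻¹) with hc₀
  have hau : a * x0 * a⁻¹ = x0 * c₀ := by rw [hc₀]; group
  have hux : u₀ * x0 * u₀⁻¹ = x0 * c₀⁻¹ := by
    rw [← hu₀e]; group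
  set e := a * u₀ with he
  have heM : e ∈ normalizer (V : Set G) :=
    Subgroup.mul_mem _ haM (qq_le V (P.uq hu₀))
  have hex0 : e * x0 = x0 * e := by
    have h1 : e * x0 * e⁻¹ = x0 := by
      have e1 : e * x0 * e⁻¹ = a * (u₀ * x0 * u₀⁻¹) * a⁻¹ := by rw [he]; group
      rw [e1, hux]
      have e2 : a * (x0 * c₀⁻¹) * a⁻¹ = (a * x0 * a⁻¹) * (a * c₀⁻¹ * a⁻¹) := by group
      rw [e2, hau, haV _ (V.inv_mem hc0)]
      group
    rw [mul_inv_eq_iff_eq_mul] at h1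
    exact h1
  have heX : ∀ x ∈ X, e * x = x * e := by
    refine gen_comm h P.cx P.xn hx0 hx01 hex0 fun x hx => ?_
    have e1 : e * x * e⁻¹ * x⁻¹
        = (a * (u₀ * x * u₀⁻¹ * x⁻¹) * a⁻¹) * (x * (x⁻¹ * (a * x * a⁻¹)) * x⁻¹) := by
      rw [he]; group
    rw [e1]
    refine V.mul_mem ((mem_normalizer_iff.1 haM _).1 (nn_com h (P.un_nn hu₀) (P.xn_nn hx))) ?_
    exact (mem_normalizer_iff.1 (qq_le V (P.xq hx)) _).1 (hW x hx)
  have heN : ∀ n ∈ NN V, e * n = n * e := by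
    intro n hn
    obtain ⟨x, hx, y, hy, hyU, rfl⟩ := P.decomp hn
    have h1 : e * y = y * e := by
      have h2 : a * y = y * a := haT y (hN1T y hy hyU)
      have h3 : u₀ * y = y * u₀ := (hyU u₀ hu₀).symm
      rw [he, mul_assoc, h3, ← mul_assoc, h2, mul_assoc]
    rw [← mul_assoc, heX x hx, mul_assoc, h1, mul_assoc]
  have heQ : ∀ q ∈ Q0 V, e * q = q * e := by
    intro q hq
    have h2 : a * q = q * a := haT q (hQ0T hq)
    have h3 : u₀ * q = q * u₀ := (mem_centralizer_iff.1 hq.2) u₀ (P.un_nn hu₀)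
    rw [he, mul_assoc, h3, ← mul_assoc, h2, mul_assoc]
  have heV : e ∈ V := Z1_le h heM heN heQ
  -- `a` lies in the plane
  have hae : a = u₀⁻¹ * e := by
    rw [he, haU u₀ hu₀]
    group
  have hu2 : u₀⁻¹ ≠ 1 := by
    intro h0
    rw [h0, one_mul] at hae
    exact hV'ne (hV'C.eq h (CC.self V) haV' (hae ▸ heV) ha1)
  obtain ⟨x₁, hx₁, hx₁e⟩ := P.exists_conj (U.inv_mem hu₀) hu2 heV
  have hU1 : CC V (cj x₁ U) := P.cu.cj x₁
  have hV'1 : V' = cj x₁ U := by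
    refine hV'C.eq h hU1 haV' ?_ ha1
    rw [hae, ← hx₁e]
    exact conj_mem_cj (U.inv_mem hu₀)
  -- the plane is `t`-invariant
  have hWt : cj t (V ⊔ U) = V ⊔ U := by
    apply Subgroup.eq_of_le_of_card_ge _ (by rw [card_cj])
    have e1 : cj t (V ⊔ U) = cj t V ⊔ cj t U := Subgroup.map_sup _ _ _
    rw [e1, htU']
    refine sup_le ?_ le_sup_right
    rw [← hV', hV'1]
    exact cjX_le P hx₁
  have hWt' : cj t⁻¹ (V ⊔ U) = V ⊔ U := by
    have := cj_inv_cj t (V ⊔ U)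
    rw [hWt] at this
    exact this
  have hV0W : cj t⁻¹ V ≤ V ⊔ U := by
    rw [← hWt']; exact cj_mono le_sup_left
  have hV0C : CC V (cj t⁻¹ V) := ⟨t⁻¹, rfl⟩
  have hV0ne : cj t⁻¹ V ≠ V := fun he' => htV (by
    have := cj_eq_self_iff.1 he'
    simpa using inv_mem this)
  obtain ⟨a₀, ha₀, ha₀1⟩ := P.exists_ne hV0C
  obtain ⟨u₃, hu₃, v₃, hv₃, ha₀e⟩ := sup_form hcUV (hV0W ha₀)
  have hu₃1 : u₃ ≠ 1 := by
    intro h0
    rw [h0, one_mul] at ha₀e
    exact hV0ne (hV0C.eq h (CC.self V) ha₀ (ha₀e ▸ hv₃) ha₀1)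
  obtain ⟨x₃, hx₃, hx₃e⟩ := P.exists_conj hu₃ hu₃1 hv₃
  have hV0 : cj t⁻¹ V = cj x₃ U := by
    refine hV0C.eq h (P.cu.cj x₃) ha₀ ?_ ha₀1
    rw [ha₀e, ← hx₃e]
    exact conj_mem_cj hu₃
  have hV0Q : cj t⁻¹ V ≤ QQ V := by
    rw [hV0]; exact cjX_qq P hx₃
  -- conclusion
  have h1 : V ≤ QQ V' := by
    have := cj_mono (g := t) hV0Q
    rw [cj_cj_inv, ← qq_cj] at this
    exact this
  rw [hV'1, qq_cj] at h1
  intro v hv
  have hx₁N : x₁ ∈ normalizer (V : Set G) := qq_le V (P.xq hx₁)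
  have h2 := h1 ((mem_normalizer_iff.1 hx₁N v).1 hv)
  have h3 := mem_cj.1 h2
  convert h3 using 1
  group

end Pl

end Cfsg.Agent.Lib.TISub.Sym
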