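import Mathlib
import Cfsg.Agent.Lib.TISub.Sym
import Cfsg.Agent.Lib.PGroup.ActionFrattini
import Cfsg.Agent.Lib.PGroup.FrattiniBasis

/-! The configuration of two conjugates `V`, `U` of the TI-subgroup with `U ≤ O₂(N(V))`. -/

set_option autoImplicit false

namespace Cfsg.Agent.Lib.TISub.Struct

open Subgroup Cfsg Cfsg.Agent.Lib.PGroup.WeaklyClosed Cfsg.Agent.Lib.TISub.Basic
  Cfsg.Agent.Lib.TISub.Plane Cfsg.Agent.Lib.TISub.Sym
open scoped commutatorElement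

variable {G : Type*} [Group G] [Finite G] {V U : Subgroup G}

theorem exists_X (h : Hyp V) (cu : CC V U) (uq : U ≤ QQ V) (un : U ≠ V) :
    ∃ X, Pl V U X := by
  by_contra hc
  push Not at hc
  have hcomm : ∀ T, CC V T → T ≤ QQ V → ∀ a ∈ U, ∀ b ∈ T, a * b = b * a := by
    intro T hT hq
    by_contra hnc
    exact hc T ⟨h, cu, hT, uq, hq, un, hnc⟩
  have hN : NN V ≤ centralizer (U : Set G) := sSup_le fun T hT t ht =>
    mem_centralizer_iff.2 fun a ha => (hcomm T hT.1 hT.2 a ha t ht)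
  have hUV : U ≤ V := fun u hu => nn_center h (le_nn cu uq hu) fun r hr =>
    ((mem_centralizer_iff.1 (hN hr)) u hu)
  exact un (Subgroup.eq_of_le_of_card_ge hUV (by rw [cu.card]))

/-- The two-conjugates configuration. -/
structure Fr (V U : Subgroup G) : Prop where
  h : Hyp V
  cu : CC V U
  un : U ≠ V
  uq : U ≤ QQ V
  vq : V ≤ QQ U

theorem Fr.of_qq (h : Hyp V) (cu : CC V U) (un : U ≠ V) (uq : U ≤ QQ V) : Fr V U := by
  obtain ⟨X, hX⟩ := exists_X h cu uq un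
  exact ⟨h, cu, un, uq, Sym.Pl.sym hX⟩

namespace Fr

variable (P : Fr V U)
include P

theorem hU : Hyp U := by
  obtain ⟨g, rfl⟩ := P.cu
  exact P.h.conj g

theorem symm : Fr U V := by
  obtain ⟨g, hg⟩ := P.cu
  refine ⟨P.hU, ⟨g⁻¹, ?_⟩, P.un.symm, P.vq, P.uq⟩
  rw [hg, cj_inv_cj]

theorem pl : ∃ X, Pl V U X := exists_X P.h P.cu P.uq P.un

theorem surj {u : G} (hu : u ∈ U) (hu1 : u ≠ 1) {v : G} (hv : v ∈ V) :
    ∃ p ∈ QQ V, p * u * p⁻¹ * u⁻¹ = v := by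
  obtain ⟨X, hX⟩ := P.pl
  obtain ⟨x, hx, he⟩ := hX.surj_x hu hu1 v hv
  exact ⟨x, hX.xq hx, he⟩

theorem comm_uv : ∀ u ∈ U, ∀ v ∈ V, u * v = v * u := comm_of_qq P.h P.cu P.uq

theorem inter {a : G} (h1 : a ∈ U) (h2 : a ∈ V) : a = 1 := by
  by_contra hne
  exact P.un (P.cu.eq P.h (CC.self V) h1 h2 hne)

theorem exists_v : ∃ v ∈ V, v ≠ 1 := by
  obtain ⟨X, hX⟩ := P.pl
  exact hX.v_ne_bot

theorem exists_u : ∃ u ∈ U, u ≠ 1 := by
  obtain ⟨X, hX⟩ := P.pl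
  exact hX.exists_ne hX.cu

/-- For `v ≠ 1` in `V` and `u ≠ 1` in `U` there is `e` with `V^e = U` and `v^e = u`. -/
theorem exists_swap {u v : G} (hu : u ∈ U) (hu1 : u ≠ 1) (hv : v ∈ V) (hv1 : v ≠ 1) :
    ∃ e, cj e V = U ∧ e * v * e⁻¹ = u := by
  obtain ⟨x, hxq, hx⟩ := P.surj hu hu1 hv
  obtain ⟨y, hyq, hy⟩ := P.symm.surj hv hv1 hu
  have hc := P.comm_uv u hu v hv
  have e1 : x * u * x⁻¹ = v * u := by rw [← hx]; group
  have e2 : y * v * y⁻¹ = u * v := by rw [← hy]; group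
  have ht1 : u * v ≠ 1 := by
    intro h0
    apply hu1
    apply P.inter hu
    have : u = v⁻¹ := eq_inv_of_mul_eq_one_left h0
    rw [this]
    exact V.inv_mem hv
  have hmem1 : u * v ∈ cj x U := by
    rw [hc, ← e1]; exact conj_mem_cj hu
  have hmem2 : u * v ∈ cj y V := by
    rw [← e2]; exact conj_mem_cj hv
  have hcc : cj x U = cj y V := CC.eq P.h (P.cu.cj x) ((CC.self V).cj y) hmem1 hmem2 ht1
  refine ⟨x⁻¹ * y, ?_, ?_⟩
  · rw [cj_mul, ← hcc, cj_inv_cj]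
  · calc x⁻¹ * y * v * (x⁻¹ * y)⁻¹ = x⁻¹ * (y * v * y⁻¹) * x := by group
      _ = x⁻¹ * (v * u) * x := by rw [e2, hc]
      _ = x⁻¹ * (x * u * x⁻¹) * x := by rw [e1]
      _ = u := by group

/-- `N(V)` is transitive on the non-identity elements of `V`. -/
theorem trans {v v' : G} (hv : v ∈ V) (hv1 : v ≠ 1) (hv' : v' ∈ V) (hv1' : v' ≠ 1) :
    ∃ m ∈ normalizer (V : Set G), m * v * m⁻¹ = v' := by
  obtain ⟨u, hu, hu1⟩ := P.exists_u
  obtain ⟨e, he, hev⟩ := P.exists_swap hu hu1 hv hv1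
  obtain ⟨e', he', hev'⟩ := P.exists_swap hu hu1 hv' hv1'
  refine ⟨e'⁻¹ * e, ?_, ?_⟩
  · rw [← cj_eq_self_iff, cj_mul, he, ← he', cj_inv_cj]
  · calc e'⁻¹ * e * v * (e'⁻¹ * e)⁻¹ = e'⁻¹ * (e * v * e⁻¹) * e' := by group
      _ = e'⁻¹ * (e' * v' * e'⁻¹) * e' := by rw [hev, hev']
      _ = v' := by group

/-- `O₂(N(V))` centralises `V`. -/
theorem qc : ∀ p ∈ QQ V, ∀ v ∈ V, p * v = v * p := by
  classical
  haveI : Fact (Nat.Prime 2) := ⟨Nat.prime_two⟩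
  let N : Subgroup ↥(QQ V) := V.subgroupOf (QQ V)
  have hN : N.Normal := ⟨fun n hn g => by
    refine mem_subgroupOf.2 ?_
    exact (mem_normalizer_iff.1 (qq_le V g.2) n.1).1 (mem_subgroupOf.1 hn)⟩
  have hQp : IsPGroup 2 ↥(QQ V) := qq_pgroup V
  obtain ⟨v₀, hv₀, hv₀1⟩ := P.exists_v
  have hne : N ≠ ⊥ := by
    intro hb
    have h3 : (⟨v₀, v_le_qq P.h hv₀⟩ : ↥(QQ V)) ∈ N := mem_subgroupOf.2 hv₀
    rw [hb] at h3
    apply hv₀1
    have h4 : (⟨v₀, v_le_qq P.h hv₀⟩ : ↥(QQ V)) = 1 := h3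
    exact congrArg Subtype.val h4
  have hi := Cfsg.Agent.Lib.PGroup.Basic.inf_center_ne_bot hQp hne
  obtain ⟨z, hz1⟩ := (Subgroup.ne_bot_iff_exists_ne_one).1 hi
  have hzV : z.1.1 ∈ V := mem_subgroupOf.1 (z.2.1)
  have hzc : ∀ q : ↥(QQ V), q * z.1 = z.1 * q := fun q => (mem_center_iff.1 z.2.2 q)
  have hz1' : z.1.1 ≠ 1 := by
    intro h0
    apply hz1
    apply Subtype.ext
    exact Subtype.ext h0
  intro p hp v hv
  by_cases hv1 : v = 1
  · subst hv1; simp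
  obtain ⟨m, hm, hmz⟩ := P.trans hzV hz1' hv hv1
  have hp' : m⁻¹ * p * m ∈ QQ V := by
    have := qq_normal (inv_mem hm) hp
    simpa using this
  have h3 : (m⁻¹ * p * m) * z.1.1 = z.1.1 * (m⁻¹ * p * m) := by
    have := hzc ⟨_, hp'⟩
    exact congrArg Subtype.val this
  rw [← hmz]
  calc p * (m * z.1.1 * m⁻¹) = m * ((m⁻¹ * p * m) * z.1.1) * m⁻¹ := by group
    _ = m * (z.1.1 * (m⁻¹ * p * m)) * m⁻¹ := by rw [h3]
    _ = (m * z.1.1 * m⁻¹) * p := by group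

theorem qq_com {p p' : G} (hp : p ∈ QQ V) (hp' : p' ∈ QQ V) : p * p' * p⁻¹ * p'⁻¹ ∈ V :=
  (P.h.comm_le (v_le_qq P.h) (qq_le V) P.qc (qq_pgroup V) (fun _ hm _ ha => qq_normal hm ha))
    (commutator_mem_commutator hp hp')

theorem com {p u : G} (hp : p ∈ QQ V) (hu : u ∈ U) : p * u * p⁻¹ * u⁻¹ ∈ V :=
  P.qq_com hp (P.uq hu)

theorem z_le {z : G} (hz : z ∈ QQ V) (hzc : ∀ r ∈ QQ V, z * r = r * z) : z ∈ V :=
  center_le P.h (v_le_qq P.h) (qq_le V) (fun _ hm _ ha => qq_normal hm ha) hz hzc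

theorem sq_mem {x : G} (hx : x ∈ QQ V) : x ^ 2 ∈ V := by
  apply P.z_le (pow_mem hx 2)
  intro r hr
  set c := x * r * x⁻¹ * r⁻¹ with hcdef
  have hc : c ∈ V := P.qq_com hx hr
  have hcx : x * c = c * x := P.qc x hx c hc
  have hcc : c * c = 1 := P.h.sq c hc
  have e : x * r = c * r * x := by rw [hcdef]; group
  calc x ^ 2 * r = x * (x * r) := by rw [pow_two, mul_assoc]
    _ = x * (c * r * x) := by rw [e]
    _ = (x * c) * r * x := by group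
    _ = c * (x * r) * x := by rw [hcx]; group
    _ = c * (c * r * x) * x := by rw [e]
    _ = (c * c) * r * x * x := by group
    _ = r * x ^ 2 := by rw [hcc, pow_two]; group

theorem center_eq : (center ↥(QQ V)).map (QQ V).subtype = V := by
  ext x
  constructor
  · rintro ⟨z, hz, rfl⟩
    refine P.z_le z.2 fun r hr => ?_
    have := mem_center_iff.1 hz ⟨r, hr⟩
    exact (congrArg Subtype.val this).symm
  · intro hx
    refine ⟨⟨x, v_le_qq P.h hx⟩, mem_center_iff.2 fun r => ?_, rfl⟩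
    apply Subtype.ext
    exact P.qc r.1 r.2 x hx

theorem comm_le_sub : commutator ↥(QQ V) ≤ V.subgroupOf (QQ V) := by
  rw [_root_.commutator_def, Subgroup.commutator_le]
  intro a _ b _
  exact mem_subgroupOf.2 (P.qq_com a.2 b.2)

theorem v_le_comm : V ≤ (commutator ↥(QQ V)).map (QQ V).subtype := by
  intro v hv
  obtain ⟨u, hu, hu1⟩ := P.exists_u
  obtain ⟨p, hp, he⟩ := P.surj hu hu1 hv
  refine ⟨⁅(⟨p, hp⟩ : ↥(QQ V)), (⟨u, P.uq hu⟩ : ↥(QQ V))⁆, ?_, ?_⟩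
  · rw [_root_.commutator_def]
    exact commutator_mem_commutator (mem_top _) (mem_top _)
  · exact he

theorem map_sub_le {K : Subgroup ↥(QQ V)} (h : K ≤ V.subgroupOf (QQ V)) :
    K.map (QQ V).subtype ≤ V := by
  rintro _ ⟨a, ha, rfl⟩
  exact mem_subgroupOf.1 (h ha)

theorem commutator_eq : (commutator ↥(QQ V)).map (QQ V).subtype = V :=
  le_antisymm (P.map_sub_le P.comm_le_sub) P.v_le_comm

theorem frattini_eq : (frattini ↥(QQ V)).map (QQ V).subtype = V := by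
  haveI : Fact (Nat.Prime 2) := ⟨Nat.prime_two⟩
  apply le_antisymm
  · apply P.map_sub_le
    have hN : (V.subgroupOf (QQ V)).Normal := ⟨fun n hn g => by
      refine mem_subgroupOf.2 ?_
      exact (mem_normalizer_iff.1 (qq_le V g.2) n.1).1 (mem_subgroupOf.1 hn)⟩
    exact Cfsg.Agent.Lib.PGroup.ActionFrattini.frattini_le (qq_pgroup V) _ P.comm_le_sub
      fun x => mem_subgroupOf.2 (P.sq_mem x.2)
  · refine P.v_le_comm.trans (Subgroup.map_mono ?_)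
    exact Cfsg.Agent.Lib.PGroup.FrattiniBasis.commutator_le_frattini (qq_pgroup V)

/-- `O₂(N(V))` normalises `V U`. -/
theorem q_norm_mem {p w : G} (hp : p ∈ QQ V) (hw : w ∈ V ⊔ U) : p * w * p⁻¹ ∈ V ⊔ U := by
  obtain ⟨u, hu, v, hv, rfl⟩ := sup_form P.comm_uv hw
  have e : p * (u * v) * p⁻¹ = (p * u * p⁻¹ * u⁻¹) * u * (p * v * p⁻¹) := by group
  rw [e]
  refine mul_mem (mul_mem ((le_sup_left : V ≤ V ⊔ U) (P.com hp hu)) ((le_sup_right : U ≤ V ⊔ U) hu)) ?_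
  rw [P.qc p hp v hv]
  have e2 : v * p * p⁻¹ = v := by group
  rw [e2]
  exact (le_sup_left : V ≤ V ⊔ U) hv

theorem q_norm : QQ V ≤ normalizer ((V ⊔ U : Subgroup G) : Set G) := fun _ hp =>
  mem_norm_of (fun _ ha => P.q_norm_mem hp ha) (fun _ ha => P.q_norm_mem (inv_mem hp) (by simpa using ha) |> fun h => by simpa using h)

theorem q_norm' : QQ U ≤ normalizer ((V ⊔ U : Subgroup G) : Set G) := by
  have := P.symm.q_norm
  rwa [sup_comm] at this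

/-- The partition of `V U` by conjugates of `V`. -/
theorem partition {w : G} (hw : w ∈ V ⊔ U) (hw1 : w ≠ 1) :
    ∃! T : Subgroup G, (∃ x : G, T = cj x V) ∧ T ≤ V ⊔ U ∧ w ∈ T := by
  have hexist : ∃ T : Subgroup G, (∃ x : G, T = cj x V) ∧ T ≤ V ⊔ U ∧ w ∈ T := by
    obtain ⟨u, hu, v, hv, rfl⟩ := sup_form P.comm_uv hw
    by_cases hu1 : u = 1
    · subst hu1
      refine ⟨V, ⟨1, by simp⟩, le_sup_left, by simpa using hv⟩
    · obtain ⟨x, hx, he⟩ := P.surj hu hu1 hv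
      obtain ⟨g, hg⟩ := P.cu
      refine ⟨cj x U, ⟨x * g, by rw [cj_mul, ← hg]⟩, ?_, ?_⟩
      · rintro _ ⟨a, ha, rfl⟩
        exact P.q_norm_mem hx ((le_sup_right : U ≤ V ⊔ U) ha)
      · have e : u * v = x * u * x⁻¹ := by
          rw [P.comm_uv u hu v hv, ← he]; group
        rw [e]
        exact conj_mem_cj hu
  obtain ⟨T, hT, hTW, hwT⟩ := hexist
  refine ⟨T, ⟨hT, hTW, hwT⟩, ?_⟩
  rintro T' ⟨hT', _, hwT'⟩
  obtain ⟨x, rfl⟩ := hT
  obtain ⟨x', rfl⟩ := hT'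
  exact P.h.ti_eq hwT' hwT hw1

end Fr

end Cfsg.Agent.Lib.TISub.Struct
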